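import Mathlib
import Cfsg.Agent.H1.RowExc
import Cfsg.Agent.ChevalleyStructure.B2Sp4

/-!
# Chevalley groups of rank 2 over fields of characteristic 2, `PSp₄(q)`: `ℒ(G, T)` (helper1)
-/

set_option autoImplicit false
set_option linter.unusedSectionVars false

namespace Cfsg.Agent.H1.RowChev

open Cfsg Cfsg.Lie
open CoxeterSystem Cfsg.Agent.ChevalleyStructure.CoxeterGeom Cfsg.Agent.Tits.Roots Cfsg.Agent.Tits.Core
  Cfsg.Agent.Tits.RootComb Cfsg.Agent.Tits.Exchange Cfsg.Agent.Nodes.Reps Cfsg.Agent.Nodes.BNOf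
  Cfsg.Agent.Nodes.StabComb Cfsg.Agent.Nodes.Bruhat Cfsg.Agent.Nodes.OppDec Cfsg.Agent.Nodes.LeviDec
  Cfsg.Agent.KFacts.RgdBorelTits Cfsg.Agent.KFacts.RgdFilt Cfsg.Agent.H1.Over Cfsg.Agent.H1.RgdRow
  Cfsg.Agent.H1.RankTwo Cfsg.Agent.H1.RowExc
open Cfsg.Agent.Nodes.RGDChev Cfsg.Agent.BiChar.RankPar Cfsg.Agent.BiChar
open Cfsg.Agent.BiChar.GTwo (range_psi)
open Cfsg.Agent.ChevalleyStructure Cfsg.Agent.ChevalleyStructure.Elts Cfsg.Agent.ChevalleyStructure.NPerm
  Cfsg.Agent.Nodes.RGDFoldSL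

universe u v w

variable {D : ChevalleyDatum} {l : ℕ} {M : CoxeterMatrix (Fin l)} (hp : IsType D l M) {K : Type u} [Field K]

include hp

/-- the homomorphism `SL₂(K) → D(K)` of a node -/
theorem range_chev (i : Fin l) : ∃ φ : Matrix.SpecialLinearGroup (Fin 2) K →* ↥(D.group K),
    φ.range = (XV D l K (sr i)).subgroupOf (D.group K) ⊔ (XV D l K (-sr i)).subgroupOf (D.group K) := by
  have hs : ∀ j : Fin l, D.simple j < D.nroots := fun j => simple_lt hp.inList (lt_rank hp j)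
  have hle : ∀ j : Fin l, D.rootSubgroup K (D.simple j) ⊔ D.rootSubgroup K (D.neg (D.simple j)) ≤ D.group K := by
    intro j
    rw [← XV_sr hp, ← XV_neg_sr hp]
    exact sup_le (XV_le_group hp _) (XV_le_group hp _)
  have hr : (psi hp.inList K (D.simple i)).range = D.rootSubgroup K (D.simple i) ⊔ D.rootSubgroup K (D.neg (D.simple i)) := by
    apply le_antisymm
    · rintro _ ⟨g, rfl⟩
      exact psi_mem hp.inList (hs i) g
    · refine sup_le ?_ ?_
      · intro g hg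
        obtain ⟨t, rfl⟩ := (mem_rootSubgroup_iff hp.inList _ g).1 hg
        exact ⟨ChevalleyStructure.SL2Hom.up t, psi_up hp.inList (hs i) t⟩
      · intro g hg
        obtain ⟨t, rfl⟩ := (mem_rootSubgroup_iff hp.inList _ g).1 hg
        exact ⟨ChevalleyStructure.SL2Hom.lo t, psi_lo hp.inList (hs i) t⟩
  refine ⟨(psi hp.inList K (D.simple i)).codRestrict (D.group K) fun g => hle i (psi_mem hp.inList (hs i) g), ?_⟩
  rw [← Subgroup.subgroupOf_sup (XV_le_group hp _) (XV_le_group hp _), XV_sr hp, XV_neg_sr hp, ← hr]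
  ext g
  rw [Subgroup.mem_subgroupOf]
  constructor
  · rintro ⟨x, rfl⟩
    exact ⟨x, rfl⟩
  · rintro ⟨x, hx⟩
    exact ⟨x, Subtype.ext hx⟩

theorem solvable_diag : Group.IsSolvable ↥((D.diagonalSubgroup K).subgroupOf (D.group K)) := by
  refine Group.isSolvable_of_comm fun a b => ?_
  apply Subtype.ext
  apply Subtype.ext
  refine ChevalleyStructure.HDiag.mul_comm_of_mem D ?_ (Subgroup.mem_subgroupOf.1 a.2) (Subgroup.mem_subgroupOf.1 b.2)
  have := hp.inList
  exact this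

end Cfsg.Agent.H1.RowChev

namespace Cfsg.Agent.H1.RowChev

open Cfsg Cfsg.Lie
open CoxeterSystem Cfsg.Agent.Tits.Roots Cfsg.Agent.H1.RgdRow Cfsg.Agent.H1.RankTwo Cfsg.Agent.H1.RowExc
open Cfsg.Agent.Nodes.RGDChev

universe u v w

variable {D : ChevalleyDatum} {M : CoxeterMatrix (Fin 2)} {K : Type u} [Field K] [Fintype K] [CharP K 2]

theorem rowL_chev (hp : IsType D 2 M) : RowL (fun _ : Fin 2 => Matrix.SpecialLinearGroup (Fin 2) K) ↥(D.group K) := by
  have : Finite M.Group := finite_W hp M.toCoxeterSystem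
  choose φ hφ using range_chev hp (K := K)
  exact rowL_sl (F := fun _ => K) (Cfsg.Agent.KFacts.RgdFiltChev.filt (K := K) hp M.toCoxeterSystem 2)
    (G1_eq_top hp M.toCoxeterSystem) (solvable_diag hp) φ hφ

/-- **row `PSp₄(q)`, `q` even** -/
theorem row_pSp {G : Type v} [Group G] [Finite G] (e : G ≃* PSp 2 K) :
    RowL (fun _ : Fin 2 => Matrix.SpecialLinearGroup (Fin 2) K) G := by
  obtain ⟨f⟩ := ChevalleyStructure.B2Sp4.chevB2_equiv_PSp K
  exact RowL.congr (e.trans f.symm) (rowL_chev (D := chevB2) (M := CoxeterMatrix.B 2) (by simp [IsType, typeList]))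

end Cfsg.Agent.H1.RowChev
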