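import Mathlib
import Cfsg.Agent.H1.RowPSL

/-!
# `L₄(2)`, `L₅(2)`: `ℒ(G, T)` (helper1)
-/

set_option autoImplicit false
set_option linter.unusedSectionVars false

namespace Cfsg.Agent.H1.RowPSLFive

open Cfsg Matrix
open CoxeterSystem Cfsg.Agent.ChevalleyStructure.CoxeterGeom Cfsg.Agent.Tits.Roots Cfsg.Agent.Tits.Core
  Cfsg.Agent.Tits.RootComb Cfsg.Agent.Tits.Exchange Cfsg.Agent.Nodes.Reps Cfsg.Agent.Nodes.BNOf
  Cfsg.Agent.Nodes.StabComb Cfsg.Agent.Nodes.Bruhat Cfsg.Agent.Nodes.OppDec Cfsg.Agent.Nodes.LeviDec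
  Cfsg.Agent.KFacts.RgdBorelTits Cfsg.Agent.KFacts.RgdFilt Cfsg.Agent.H1.Over Cfsg.Agent.H1.RgdRow
  Cfsg.Agent.H1.RankTwo Cfsg.Agent.H1.RowExc Cfsg.Agent.H1.EmbSL Cfsg.Agent.H1.RowPSL
open Cfsg.Agent.Nodes.RGDTypeA Cfsg.Agent.TitsThree.KSideA Cfsg.Agent.LieClassical.SLGen Cfsg.Agent.Nodes.RootsA
open Cfsg.Agent.LieRecognition.BNCox (cA)

universe u v w

/-- the roots `rtA a b` with support in `J` -/
def Adj {n : ℕ} (J : Finset (Fin n)) (a b : Fin (n + 1)) : Prop := ∀ k, k ∉ J → rtA a b k = 0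

instance {n : ℕ} (J : Finset (Fin n)) (a b : Fin (n + 1)) : Decidable (Adj J a b) :=
  inferInstanceAs (Decidable (∀ k, k ∉ J → rtA a b k = 0))

/-- `{a, b} = {i, i + 1}` -/
def Pr {n : ℕ} (i : Fin n) (a b : Fin (n + 1)) : Prop :=
  (a = i.castSucc ∧ b = i.succ) ∨ (a = i.succ ∧ b = i.castSucc)

instance {n : ℕ} (i : Fin n) (a b : Fin (n + 1)) : Decidable (Pr i a b) :=
  inferInstanceAs (Decidable (_ ∨ _))

/-- the block `s, …, s + m - 1` -/
def Blk {n : ℕ} (s m : ℕ) (a : Fin (n + 1)) : Prop := s ≤ a.val ∧ a.val < s + m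

instance {n : ℕ} (s m : ℕ) (a : Fin (n + 1)) : Decidable (Blk s m a) := inferInstanceAs (Decidable (_ ∧ _))

/-- nodes at distance at least 2 -/
def Far {n : ℕ} (i j : Fin n) : Prop := i.val + 2 ≤ j.val ∨ j.val + 2 ≤ i.val

instance {n : ℕ} (i j : Fin n) : Decidable (Far i j) := inferInstanceAs (Decidable (_ ∨ _))

/-- `J` is solvable -/
def Solv {n : ℕ} (J : Finset (Fin n)) : Prop :=
  ∃ i j : Fin n, (i = j ∨ Far i j) ∧ ∀ a b, a ≠ b → Adj J a b → Pr i a b ∨ Pr j a b

/-- `J` has the block `s, …, s + m - 1` of size at least 3 and otherwise at most one node -/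
def Good {n : ℕ} (J : Finset (Fin n)) (s m : ℕ) : Prop :=
  s + m ≤ n + 1 ∧ (∀ a b, Blk s m a → Blk s m b → Adj J a b) ∧
    ((∀ a b, a ≠ b → Adj J a b → Blk s m a ∧ Blk s m b) ∨
      ∃ i ∈ J, (i.val + 2 ≤ s ∨ s + m ≤ i.val) ∧
        ∀ a b, a ≠ b → Adj J a b → (Blk s m a ∧ Blk s m b) ∨ Pr i a b)

instance {n : ℕ} (J : Finset (Fin n)) : Decidable (Solv J) := by
  unfold Solv
  infer_instance

instance {n : ℕ} (J : Finset (Fin n)) (s m : ℕ) : Decidable (Good J s m) := by
  unfold Good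
  infer_instance

theorem comb_four : ∀ J : Finset (Fin 3), J ≠ Finset.univ → Solv J ∨ ∃ s < 2, Good J s 3 := by
  decide +kernel

theorem comb_five : ∀ J : Finset (Fin 4), J ≠ Finset.univ → Solv J ∨ (∃ s < 3, Good J s 3) ∨ ∃ s < 2, Good J s 4 := by
  decide +kernel

variable {F : Type w} [Field F] [Fintype F] [CharP F 2]

section sl

variable {n : ℕ} {κ κ' : Type} [Fintype κ] [DecidableEq κ] [Nontrivial κ] [Fintype κ'] [DecidableEq κ'] [Nontrivial κ']

theorem T_le_norm (f : κ ↪ Fin (n + 1)) :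
    T (Fin (n + 1)) F ≤ Subgroup.normalizer ((emb (F := F) f).range : Set (SpecialLinearGroup (Fin (n + 1)) F)) := by
  intro t ht
  rw [mem_normalizer_iff_cj, range_emb]
  unfold cj
  rw [Subgroup.map_iSup]
  refine iSup_congr fun p => ?_
  exact (mem_T.1 ht).cj_XX fun h => p.2 (f.injective h)

theorem range_comm (f : κ ↪ Fin (n + 1)) (g : κ' ↪ Fin (n + 1)) (hfg : ∀ a b, f a ≠ g b) :
    (emb (F := F) f).range ≤ Subgroup.centralizer ((emb (F := F) g).range : Set (SpecialLinearGroup (Fin (n + 1)) F)) := by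
  rw [range_emb, iSup_le_iff]
  intro p
  rw [Subgroup.le_centralizer_iff, range_emb, iSup_le_iff]
  intro q x hx
  rw [Subgroup.mem_centralizer_iff]
  intro y hy
  obtain ⟨s, rfl⟩ := hx
  obtain ⟨t, rfl⟩ := hy
  exact tv_commute (hfg _ _) (hfg _ _) t s

/-- the embedding of the block `s, …, s + m - 1` -/
def blkEmb {s m : ℕ} (h : s + m ≤ n + 1) : Fin m ↪ Fin (n + 1) where
  toFun t := ⟨s + t.val, by omega⟩
  inj' a b hab := by
    have := congrArg Fin.val hab
    simp only [add_right_inj] at this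
    exact Fin.ext this

theorem blk_blkEmb {s m : ℕ} (h : s + m ≤ n + 1) (t : Fin m) : Blk s m (blkEmb h t) :=
  ⟨Nat.le_add_right _ _, Nat.add_lt_add_left t.2 s⟩

theorem exists_blkEmb {s m : ℕ} (h : s + m ≤ n + 1) {a : Fin (n + 1)} (ha : Blk s m a) : ∃ t, blkEmb h t = a :=
  ⟨⟨a.val - s, by have := ha.1; have := ha.2; omega⟩, Fin.ext (by
    change s + (a.val - s) = a.val
    have := ha.1
    omega)⟩

theorem XX_le_of_blk {s m : ℕ} (h : s + m ≤ n + 1) [Nontrivial (Fin m)] {a b : Fin (n + 1)} (hab : a ≠ b) (ha : Blk s m a)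
    (hb : Blk s m b) : XX F a b ≤ (emb (F := F) (blkEmb h)).range := by
  obtain ⟨a, rfl⟩ := exists_blkEmb h ha
  obtain ⟨b, rfl⟩ := exists_blkEmb h hb
  rw [range_emb]
  exact le_iSup (fun p : {p : Fin m × Fin m // p.1 ≠ p.2} => XX F (blkEmb h p.1.1) (blkEmb h p.1.2))
    ⟨(a, b), fun e => hab (congrArg _ e)⟩

theorem XX_le_of_pr {i : Fin n} {a b : Fin (n + 1)} (h : Pr i a b) : XX F a b ≤ (emb (F := F) (pairEmb i)).range := by
  rw [range_emb]
  rcases h with ⟨rfl, rfl⟩ | ⟨rfl, rfl⟩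
  · exact le_iSup (fun p : {p : Fin 2 × Fin 2 // p.1 ≠ p.2} => XX F (pairEmb i p.1.1) (pairEmb i p.1.2))
      ⟨(0, 1), by decide⟩
  · exact le_iSup (fun p : {p : Fin 2 × Fin 2 // p.1 ≠ p.2} => XX F (pairEmb i p.1.1) (pairEmb i p.1.2))
      ⟨(1, 0), by decide⟩

end sl

section levi

variable {n : ℕ}

/-- the root groups of `L_{n+1}(F)` -/
abbrev XP (n : ℕ) (F : Type w) [Field F] (x : Fin n → ℤ) : Subgroup (ProjectiveSpecialLinearGroup (Fin (n + 1)) F) :=
  (X F x).map (pr n F)

/-- the torus -/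
abbrev TP (n : ℕ) (F : Type w) [Field F] : Subgroup (ProjectiveSpecialLinearGroup (Fin (n + 1)) F) :=
  (T (Fin (n + 1)) F).map (pr n F)

abbrev LP (F : Type w) [Field F] (J : Finset (Fin n)) : Subgroup (ProjectiveSpecialLinearGroup (Fin (n + 1)) F) :=
  LJ (cA n).toCoxeterSystem (isCartan n) (TP n F) (XP n F) (J : Set (Fin n))

theorem LP_le {J : Finset (Fin n)} {H : Subgroup (SpecialLinearGroup (Fin (n + 1)) F)}
    (hT : T (Fin (n + 1)) F ≤ H) (hH : ∀ a b, a ≠ b → Adj J a b → XX F a b ≤ H) : LP F J ≤ H.map (pr n F) := by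
  refine sup_le (Subgroup.map_mono hT) (RGD.Sup_le ?_)
  rintro x ⟨hx, h0⟩
  obtain ⟨a, b, hab, rfl⟩ := exists_of_isRoot _ _ hx
  rw [XP, X_rtA hab]
  exact Subgroup.map_mono (hH a b hab fun k hk => h0 k (by simpa using hk))

theorem XX_map_le {J : Finset (Fin n)} {a b : Fin (n + 1)} (hab : a ≠ b) (h : Adj J a b) :
    (XX F a b).map (pr n F) ≤ RGD.Sup (XP n F) (RootsJ (cA n).toCoxeterSystem (isCartan n) (J : Set (Fin n))) := by
  rw [← X_rtA hab]
  exact RGD.le_Sup (X := XP n F) ⟨isRoot_rtA _ _ hab, fun k hk => h k (by simpa using hk)⟩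

theorem solvable_T' : Group.IsSolvable ↥(T (Fin (n + 1)) F) :=
  Group.isSolvable_of_comm fun a b => Subtype.ext (mul_comm_T a.2 b.2)

theorem solvable_map {G H : Type*} [Group G] [Group H] (f : G →* H) {K : Subgroup G} (hK : Group.IsSolvable K) :
    Group.IsSolvable ↥(K.map f) :=
  Group.isSolvable_of_surjective (f := f.subgroupMap K) (f.subgroupMap_surjective K)

theorem solvable_le {G : Type*} [Group G] {H K : Subgroup G} (hK : Group.IsSolvable K) (h : H ≤ K) :
    Group.IsSolvable H :=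
  Group.isSolvable_of_isSolvable_injective (f := Subgroup.inclusion h) (Subgroup.inclusion_injective h)

variable (h2 : Fintype.card F = 2)

include h2 in
theorem solvable_range (i : Fin n) : Group.IsSolvable ↥(emb (F := F) (pairEmb i)).range := by
  have h1 : Group.IsSolvable (SpecialLinearGroup (Fin 2) F) := solvable_sl F (by omega)
  exact Group.isSolvable_of_surjective (f := (emb (F := F) (pairEmb i)).rangeRestrict)
    (emb (F := F) (pairEmb i)).rangeRestrict_surjective

include h2 in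
theorem solvable_T_sup (i : Fin n) : Group.IsSolvable ↥(T (Fin (n + 1)) F ⊔ (emb (F := F) (pairEmb i)).range) :=
  isSolvable_sup solvable_T' (solvable_range h2 i) (T_le_norm _)

theorem pairEmb_val (i : Fin n) (a : Fin 2) : (pairEmb i a).val = i.val + a.val := by
  fin_cases a <;> rfl

theorem pair_ne_of_far {i j : Fin n} (h : Far i j) (a b : Fin 2) : pairEmb i a ≠ pairEmb j b := by
  intro e
  have h1 := congrArg Fin.val e
  rw [pairEmb_val, pairEmb_val] at h1
  have := a.2
  have := b.2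
  rcases h with h | h <;> omega

include h2 in
theorem solvable_LP {J : Finset (Fin n)} (hJ : Solv J) : Group.IsSolvable ↥(LP F J) := by
  obtain ⟨i, j, hij, hc⟩ := hJ
  have h1 : LP F J ≤ ((T (Fin (n + 1)) F ⊔ (emb (F := F) (pairEmb i)).range) ⊔
      (emb (F := F) (pairEmb j)).range).map (pr n F) := by
    refine LP_le (le_sup_left.trans le_sup_left) fun a b hab h => ?_
    rcases hc a b hab h with h1 | h1
    · exact ((XX_le_of_pr h1).trans le_sup_right).trans le_sup_left
    · exact (XX_le_of_pr h1).trans le_sup_right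
  refine solvable_le (solvable_map _ (isSolvable_sup (solvable_T_sup h2 i) (solvable_range h2 j) ?_)) h1
  refine sup_le (T_le_norm _) ?_
  rcases hij with rfl | hij
  · exact Subgroup.le_normalizer
  · refine (range_comm _ _ fun a b => pair_ne_of_far hij a b).trans ?_
    exact Subgroup.centralizer_le_normalizer _

include h2 in
theorem eq_one_of_ne {c : F} (hc : c ≠ 0) : c = 1 := by
  classical
  by_contra h1
  have h3 : ({0, 1, c} : Finset F).card ≤ Fintype.card F := Finset.card_le_univ _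
  rw [h2, Finset.card_eq_three.2 ⟨0, 1, c, zero_ne_one, hc.symm, fun h => h1 h.symm, rfl⟩] at h3
  omega

include h2 in
theorem center_sl {m : ℕ} : Subgroup.center (SpecialLinearGroup (Fin (m + 1)) F) = ⊥ := by
  rw [eq_bot_iff]
  intro x hx
  obtain ⟨r, hr, hx⟩ := Matrix.SpecialLinearGroup.mem_center_iff.1 hx
  have h3 : r = 1 := by
    apply eq_one_of_ne h2
    rintro rfl
    rw [Fintype.card_fin, zero_pow (Nat.succ_ne_zero _)] at hr
    exact zero_ne_one hr
  rw [Subgroup.mem_bot]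
  apply Subtype.ext
  rw [← hx, h3, map_one]
  rfl

include h2 in
theorem pr_injective {m : ℕ} : Function.Injective (pr m F) := by
  rw [← MonoidHom.ker_eq_bot_iff, ker_pr]
  exact center_sl h2

/-- `SL_{m+3}(2)` is simple -/
theorem simple_psl (m : ℕ) : IsSimpleGroup (ProjectiveSpecialLinearGroup (Fin (m + 3)) F) :=
  psl_isSimpleGroup (by rw [Fintype.card_fin]; omega)

theorem not_comm_psl (m : ℕ) : ¬ IsMulCommutative (ProjectiveSpecialLinearGroup (Fin (m + 3)) F) := by
  intro h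
  have h1 : Nontrivial (ProjectiveSpecialLinearGroup (Fin (m + 3)) F) := (simple_psl m).toNontrivial
  have h3 : commutator (SpecialLinearGroup (Fin (m + 3)) F) = ⊤ :=
    Cfsg.Agent.LieClassical.SLGen.commutator_eq_top (by rw [Fintype.card_fin]; omega)
  have h4 : commutator (ProjectiveSpecialLinearGroup (Fin (m + 3)) F) = ⊤ := by
    have h5 : (commutator (SpecialLinearGroup (Fin (m + 3)) F)).map (pr (m + 2) F) =
        commutator (ProjectiveSpecialLinearGroup (Fin (m + 3)) F) := by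
      rw [commutator_def, Subgroup.map_commutator, Subgroup.map_top_of_surjective _ pr_surjective]
      rfl
    rw [← h5, h3, Subgroup.map_top_of_surjective _ pr_surjective]
  have h6 : commutator (ProjectiveSpecialLinearGroup (Fin (m + 3)) F) = ⊥ := by
    rw [commutator_eq_bot_iff_center_eq_top, Subgroup.center_eq_top_iff]
    exact h
  rw [h6] at h4
  exact (bot_ne_top h4).elim

include h2 in
theorem nodeD_blk {J : Finset (Fin n)} {s m : ℕ} (hg : Good J s (m + 3)) :
    ∃ N, NodeD (cA n).toCoxeterSystem (isCartan n) (TP n F) (XP n F) (J : Set (Fin n)) N ∧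
      Nonempty (N ≃* ProjectiveSpecialLinearGroup (Fin (m + 3)) F) := by
  obtain ⟨hle, hadj, hc⟩ := hg
  have hfin : Finite (ProjectiveSpecialLinearGroup (Fin (m + 3)) F) := Quotient.finite _
  have hsimple := simple_psl (F := F) m
  have h2p : Fact (Nat.Prime 2) := ⟨Nat.prime_two⟩
  set f := blkEmb hle with hf
  let φ : SpecialLinearGroup (Fin (m + 3)) F →* ProjectiveSpecialLinearGroup (Fin (n + 1)) F := (pr n F).comp (emb f)
  have hφi : Function.Injective φ := (pr_injective h2).comp (emb_injective f)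
  let e1 : SpecialLinearGroup (Fin (m + 3)) F ≃* ProjectiveSpecialLinearGroup (Fin (m + 3)) F :=
    MulEquiv.ofBijective (pr (m + 2) F) ⟨pr_injective h2, pr_surjective⟩
  let e2 : SpecialLinearGroup (Fin (m + 3)) F ≃* φ.range := MonoidHom.ofInjective hφi
  let e : ProjectiveSpecialLinearGroup (Fin (m + 3)) F ≃* φ.range := e1.symm.trans e2
  have hN : φ.range = ((emb (F := F) f).range).map (pr n F) := MonoidHom.range_comp _ _
  have hTN : TP n F ≤ Subgroup.normalizer (φ.range : Set (ProjectiveSpecialLinearGroup (Fin (n + 1)) F)) := by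
    rw [hN]
    exact (Subgroup.map_mono (T_le_norm f)).trans (Subgroup.le_normalizer_map _)
  have hle' : φ.range ≤ RGD.Sup (XP n F) (RootsJ (cA n).toCoxeterSystem (isCartan n) (J : Set (Fin n))) := by
    rw [hN, range_emb, Subgroup.map_iSup]
    refine iSup_le fun p => ?_
    exact XX_map_le (fun h => p.2 (f.injective h)) (hadj _ _ (blk_blkEmb hle _) (blk_blkEmb hle _))
  refine ⟨φ.range, ⟨hle', ?_, ?_, ?_⟩, ⟨e.symm⟩⟩
  · exact QTKE.isQuasisimple_congr e (isQuasisimple_of_simple _ (not_comm_psl m))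
  · rw [← Lib.Cores.map_equiv_pCore e 2, pCore_of_simple 2 _ (not_comm_psl m), Subgroup.map_bot]
  · rcases hc with hc | ⟨i, hi, hd, hc⟩
    · refine ⟨TP n F, solvable_map _ solvable_T', T_le_LJ, hTN, ?_⟩
      rw [hN, ← Subgroup.map_sup]
      exact LP_le le_sup_left fun a b hab h => (XX_le_of_blk hle hab (hc a b hab h).1 (hc a b hab h).2).trans le_sup_right
    · refine ⟨(T (Fin (n + 1)) F ⊔ (emb (F := F) (pairEmb i)).range).map (pr n F),
        solvable_map _ (solvable_T_sup h2 i), ?_, ?_, ?_⟩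
      · rw [Subgroup.map_sup]
        refine sup_le T_le_LJ ?_
        rw [← MonoidHom.range_comp, range_pair]
        refine sup_le ?_ ?_
        · exact X_le_LJ (X := XP n F) (PosJ_subset _ (sr_mem_PosJ (by simpa using hi)))
        · exact X_le_LJ (X := XP n F) (RootsJ.neg (PosJ_subset _ (sr_mem_PosJ (by simpa using hi))))
      · rw [Subgroup.map_sup]
        refine sup_le hTN ?_
        rw [hN]
        refine (Subgroup.map_mono ?_).trans (Subgroup.le_normalizer_map _)
        refine (range_comm _ _ fun a b e => ?_).trans (Subgroup.centralizer_le_normalizer _)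
        have h3 := congrArg Fin.val e
        rw [pairEmb_val, hf] at h3
        have h4 := (blk_blkEmb hle b).1
        have h5 := (blk_blkEmb hle b).2
        have h6 := a.2
        omega
      · rw [hN, ← Subgroup.map_sup]
        refine LP_le (le_sup_left.trans le_sup_left) fun a b hab h => ?_
        rcases hc a b hab h with h3 | h3
        · exact (XX_le_of_blk hle hab h3.1 h3.2).trans le_sup_right
        · exact ((XX_le_of_pr h3).trans le_sup_right).trans le_sup_left

end levi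

section rows

variable (h2 : Fintype.card F = 2)

include h2 in
theorem rowL_psl_five : RowL (fun i : Fin 2 => ProjectiveSpecialLinearGroup (Fin (i.val + 3)) F)
    (ProjectiveSpecialLinearGroup (Fin 5) F) := by
  obtain ⟨Φ, _, R, hF⟩ := exists_filt (F := F) 4
  have : Finite (ProjectiveSpecialLinearGroup (Fin (4 + 1)) F) := Quotient.finite _
  refine rowL_of_rgd hF (Nodes.RGDTypeA.G1_psl_eq_top _ _) fun J hJ => ?_
  classical
  obtain ⟨J, rfl⟩ : ∃ J' : Finset (Fin 4), (J' : Set (Fin 4)) = J := ⟨J.toFinset, by simp⟩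
  rcases comb_five J (fun h => hJ (by rw [h, Finset.coe_univ])) with h1 | ⟨s, -, h1⟩ | ⟨s, -, h1⟩
  · exact Or.inl (solvable_LP h2 h1)
  · obtain ⟨N, hN, e⟩ := nodeD_blk (m := 0) h2 h1
    exact Or.inr ⟨N, hN, 0, e⟩
  · obtain ⟨N, hN, e⟩ := nodeD_blk (m := 1) h2 h1
    exact Or.inr ⟨N, hN, 1, e⟩

include h2 in
theorem rowL_psl_four : RowL (fun _ : Unit => ProjectiveSpecialLinearGroup (Fin 3) F)
    (ProjectiveSpecialLinearGroup (Fin 4) F) := by
  obtain ⟨Φ, _, R, hF⟩ := exists_filt (F := F) 3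
  have : Finite (ProjectiveSpecialLinearGroup (Fin (3 + 1)) F) := Quotient.finite _
  refine rowL_of_rgd hF (Nodes.RGDTypeA.G1_psl_eq_top _ _) fun J hJ => ?_
  classical
  obtain ⟨J, rfl⟩ : ∃ J' : Finset (Fin 3), (J' : Set (Fin 3)) = J := ⟨J.toFinset, by simp⟩
  rcases comb_four J (fun h => hJ (by rw [h, Finset.coe_univ])) with h1 | ⟨s, -, h1⟩
  · exact Or.inl (solvable_LP h2 h1)
  · obtain ⟨N, hN, e⟩ := nodeD_blk (m := 0) h2 h1
    exact Or.inr ⟨N, hN, (), e⟩

include h2 in
/-- **row `L₅(2)`** -/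
theorem row_psl_five {G : Type v} [Group G] [Finite G] (e : G ≃* ProjectiveSpecialLinearGroup (Fin 5) F) :
    RowL (fun i : Fin 2 => ProjectiveSpecialLinearGroup (Fin (i.val + 3)) F) G :=
  RowL.congr e (rowL_psl_five h2)

include h2 in
/-- **row `L₄(2)`** -/
theorem row_psl_four {G : Type v} [Group G] [Finite G] (e : G ≃* ProjectiveSpecialLinearGroup (Fin 4) F) :
    RowL (fun _ : Unit => ProjectiveSpecialLinearGroup (Fin 3) F) G :=
  RowL.congr e (rowL_psl_four h2)

end rows

end Cfsg.Agent.H1.RowPSLFive
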