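import Mathlib
import Cfsg.Agent.H1.WittRow
import Cfsg.Agent.H1.RowChev

/-!
# `U₄(q)`, `U₅(q)`, `PSp₄(q)`, `q ≥ 4` even: `ℒ(G, T)` (helper1)
-/

set_option autoImplicit false
set_option linter.unusedSectionVars false

namespace Cfsg.Agent.H1.RowU

open Cfsg
open Cfsg.Agent.ChevalleyStructure.CoxeterGeom Cfsg.Agent.Tits.Roots Cfsg.Agent.Nodes.TypeC
open Cfsg.Agent.Nodes.Comb Cfsg.Agent.Nodes.Reps Cfsg.Agent.Nodes.WittRoot Cfsg.Agent.Nodes.BNOf
open Cfsg.Agent.TitsThree Cfsg.Agent.TitsThree.Siegel Cfsg.Agent.TitsThree.WittFrame Cfsg.Agent.TitsThree.WittWeyl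
open Cfsg.Agent.TitsThree.FrameCN
open Cfsg.Agent.Nodes.WittU Cfsg.Agent.Nodes.WittInst
open Cfsg.Agent.Nodes.WittAll (AmbT nn_mem)
open Cfsg.Agent.H1.WittPerf Cfsg.Agent.H1.QsNode Cfsg.Agent.H1.RgdRow Cfsg.Agent.H1.WittRow

universe u v w

/-- a scalar fixed by `x ↦ x ^ q`, different from 0 and 1 -/
theorem exists_fixed {F : Type*} [Field F] [Fintype F] {q : ℕ} (hF : Fintype.card F = q ^ 2) (hq : 3 ≤ q) :
    ∃ t : F, t ≠ 0 ∧ t ≠ 1 ∧ t ^ q = t := by
  classical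
  obtain ⟨g, hg⟩ := IsCyclic.exists_generator (α := Fˣ)
  have ho : orderOf g = q ^ 2 - 1 := by
    rw [orderOf_eq_card_of_forall_mem_zpowers hg, Nat.card_units, Nat.card_eq_fintype_card, hF]
  have e : (q + 1) * (q - 1) = q ^ 2 - 1 := by
    obtain ⟨k, rfl⟩ : ∃ k, q = k + 1 := ⟨q - 1, by omega⟩
    simp only [Nat.add_sub_cancel]
    have : (k + 1) ^ 2 = (k + 1 + 1) * k + 1 := by ring
    rw [this, Nat.add_sub_cancel]
  refine ⟨((g ^ (q + 1) : Fˣ) : F), Units.ne_zero _, ?_, ?_⟩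
  · intro h
    have h1 : g ^ (q + 1) = 1 := Units.ext h
    have h2 := orderOf_dvd_of_pow_eq_one h1
    rw [ho, ← e] at h2
    have h3 := Nat.le_of_dvd (by omega) h2
    have h4 : (q + 1) * 2 ≤ (q + 1) * (q - 1) := Nat.mul_le_mul_left _ (by omega)
    omega
  · rw [← Units.val_pow_eq_pow_val]
    congr 1
    have h1 : (g ^ (q + 1)) ^ (q - 1) = 1 := by
      rw [← pow_mul, e, ← ho, pow_orderOf_eq_one]
    obtain ⟨k, rfl⟩ : ∃ k, q = k + 1 := ⟨q - 1, by omega⟩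
    rw [Nat.add_sub_cancel] at h1
    rw [pow_succ, h1, one_mul]

/-- the elements of 2-power order of `G` have order at most 2 -/
def SqOne (G : Type*) [Group G] : Prop := ∀ x : G, (∃ k : ℕ, x ^ 2 ^ k = 1) → x ^ 2 = 1

section sq

open CoxeterSystem Cfsg.Agent.Tits.Core Cfsg.Agent.Tits.RootComb Cfsg.Agent.Tits.Exchange
  Cfsg.Agent.Nodes.StabComb Cfsg.Agent.Nodes.Bruhat Cfsg.Agent.Nodes.OppDec Cfsg.Agent.Nodes.LeviDec
  Cfsg.Agent.H1.RankTwo Cfsg.Agent.GenExc Cfsg.Agent.Nodes.Sub Cfsg.Agent.Nodes.SubComb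

variable {I W Y : Type*} [Fintype I] [DecidableEq I] [Group W] [Group Y] {M : CoxeterMatrix I}
  {cs : CoxeterSystem M W} {A : I → I → ℤ} {h : IsCartan M A} {T : Subgroup Y} {n : I → Y}
  {X : (I → ℤ) → Subgroup Y}

theorem sqOne_node [Finite W] [Finite Y] (R : RGD cs h 2 T n X) (i : I) (hn : n i ∈ X (sr i) ⊔ X (-sr i))
    (hsq : ∀ x ∈ X (sr i), x ^ 2 = 1) : SqOne ↥(X (sr i) ⊔ X (-sr i)) := by
  have h2p : Fact (Nat.Prime 2) := ⟨Nat.prime_two⟩
  have hfin : Finite (leviMatrix (one i) M).Group := finite_WL (cs := cs) (h := h) (one i)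
  have hn' : ∀ j, n ((one i) j) ∈ HL cs h X (one i) := fun _ => by rw [HL_one]; exact hn
  have hR := rgd_HL (one i) R hn'
  obtain ⟨S, hS⟩ := exists_sylow hR (Cfsg.Agent.KFacts.RgdFilt.GG_eq_top (G1_HL_top (one i)))
  have hle : (S : Subgroup ↥(HL cs h X (one i))) ≤ (X (sr i)).subgroupOf (HL cs h X (one i)) := by
    rw [hS]
    refine RGD.Sup_le fun c hc => ?_
    have h1 := iota_mem_LR (cs := cs) (h := h) (one i) hc.1
    have h2 : iota (fun j => sr ((one i) j)) c ∈ RootsJ cs h {i} :=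
      ⟨h1.1, fun k hk => h1.2 k fun _ he => hk he.symm⟩
    rcases rootsJ_single i h2 with e | e
    · rw [e]
    · exfalso
      have h3 : iota (fun j => sr ((one i) j)) c i = c () := iota_levi_apply (one i) c ()
      have h4 : 0 ≤ c () := hc.2 ()
      rw [e, Pi.neg_apply, sr_self] at h3
      omega
  have key : SqOne ↥(HL cs h X (one i)) := by
    rintro x ⟨k, hk⟩
    have hxp : IsPGroup 2 (Subgroup.zpowers x) := by
      rintro ⟨y, hy⟩
      obtain ⟨m, rfl⟩ := Subgroup.mem_zpowers_iff.1 hy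
      refine ⟨k, Subtype.ext ?_⟩
      change (x ^ m) ^ 2 ^ k = 1
      rw [← zpow_natCast, ← zpow_mul, mul_comm, zpow_mul, zpow_natCast, hk, one_zpow]
    obtain ⟨P, hP⟩ := hxp.exists_le_sylow
    obtain ⟨g, hg⟩ := MulAction.exists_smul_eq ↥(HL cs h X (one i)) P S
    have h1 : g * x * g⁻¹ ∈ (S : Subgroup ↥(HL cs h X (one i))) := by
      rw [← hg, Sylow.coe_subgroup_smul]
      exact ⟨x, hP (Subgroup.mem_zpowers x), rfl⟩
    have h2 : (g * x * g⁻¹) ^ 2 = 1 := by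
      apply Subtype.ext
      exact hsq _ (Subgroup.mem_subgroupOf.1 (hle h1))
    have h3 : (g * x * g⁻¹) ^ 2 = g * x ^ 2 * g⁻¹ := conj_pow
    rw [h3] at h2
    have h4 : x ^ 2 = g⁻¹ * (g * x ^ 2 * g⁻¹) * g := by group
    rw [h4, h2]
    group
  rw [HL_one] at key
  exact key

end sq

section U

open Cfsg.Agent.TitsThree.WBridge Cfsg.Agent.TitsThree.KSideU

variable {F : Type w} [Field F] [Fintype F] [CharP F 2] {q : ℕ} (hF : Fintype.card F = q ^ 2) (hq : 3 ≤ q)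

include hF hq in
/-- **row `U₄(q)`** -/
theorem row_model_four (hFT : ∀ (T : Subgroup (PSU 4 F q)), Odd (Nat.card T) → Group.IsSolvable T) :
    ∃ (Q : Fin 2 → Subgroup (PSU 4 F q)), (∀ i, SqOne (Q i)) ∧ RowL (fun i : Fin 2 => ↥(Q i)) (PSU 4 F q) ∧
      RowT (PSU 4 F q) := by
  have h2p : Fact (Nat.Prime 2) := ⟨Nat.prime_two⟩
  obtain ⟨W, hW⟩ := exists_wframe_even hF (m := 2) (N := 4) rfl
  obtain ⟨p0, hp0, -⟩ := exists_adm hF W
  obtain ⟨t, ht0, ht1, ht⟩ := exists_fixed hF hq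
  have : Finite (PSU 4 F q) := Quotient.finite _
  have hA := AmbT.of_amb (amb_U hF W) 2
  set M := KInstU.model hF (by norm_num : 3 ≤ 4) W with hM
  obtain ⟨h1, h2⟩ := row_model M hA hp0 ht0 ht1 (by rw [HU_σ]; exact ht) hFT
  refine ⟨fun i => Nodes.WittModel.X M (sr i) ⊔ Nodes.WittModel.X M (-sr i), fun i => ?_, h1, h2⟩
  have hWf : Finite (CoxeterMatrix.B 2).Group := finite_W (CoxeterMatrix.B 2).toCoxeterSystem
  refine sqOne_node (Nodes.WittAll.rgdC_model M hA hp0 (CoxeterMatrix.B 2).toCoxeterSystem) i (nn_mem_sup' M hA p0 i) ?_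
  rintro _ ⟨g, hg, rfl⟩
  rw [← map_pow]
  have h3 : g ^ 2 = 1 := by
    apply Subtype.ext
    have hg' : (g : (Fin 4 → F) ≃ₗ[F] (Fin 4 → F)) ∈ rg (toFrame W) (sr i) := Subgroup.mem_subgroupOf.1 hg
    change (g : (Fin 4 → F) ≃ₗ[F] (Fin 4 → F)) ^ 2 = 1
    fin_cases i
    · rw [Fin.zero_eta, rg_sr_zero] at hg'
      obtain ⟨t, ht⟩ := hg'
      rw [ht, pow_two, ← Frame.X_add, CharTwo.add_self_eq_zero, Frame.X_zero]
    · rw [Fin.mk_one, rg_sr_one] at hg'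
      obtain ⟨p, hp⟩ := hg'
      have hw : p.w = 0 := by
        have h4 : p.w ∈ W.V0 := (toFrame W).ok_mem p.ok
        rw [hW] at h4
        exact (Submodule.mem_bot F).1 h4
      have hpp : p * p = 1 := by
        ext1
        · rw [Frame.Adm.mul_w, hw, add_zero, Frame.Adm.one_w]
        · rw [Frame.Adm.mul_c, hw, HForm.zero_left, mul_zero, sub_zero, CharTwo.add_self_eq_zero, Frame.Adm.one_c]
      rw [hp, pow_two, ← Frame.Z_mul, hpp, Frame.Z_one]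
  rw [h3, map_one]

include hF hq in
/-- **row `U₅(q)`** -/
theorem row_model_five (hFT : ∀ (T : Subgroup (PSU 5 F q)), Odd (Nat.card T) → Group.IsSolvable T) :
    ∃ (Q : Fin 2 → Subgroup (PSU 5 F q)), RowL (fun i : Fin 2 => ↥(Q i)) (PSU 5 F q) ∧ RowT (PSU 5 F q) := by
  have h2p : Fact (Nat.Prime 2) := ⟨Nat.prime_two⟩
  obtain ⟨W, -⟩ := exists_wframe hF (m := 2) (N := 5) (Or.inr rfl)
  obtain ⟨p0, hp0, -⟩ := exists_adm hF W
  obtain ⟨t, ht0, ht1, ht⟩ := exists_fixed hF hq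
  have : Finite (PSU 5 F q) := Quotient.finite _
  have hA := AmbT.of_amb (amb_U hF W) 2
  obtain ⟨h1, h2⟩ := row_model (KInstU.model hF (by norm_num : 3 ≤ 5) W) hA hp0 ht0 ht1 (by rw [HU_σ]; exact ht) hFT
  exact ⟨_, h1, h2⟩

end U

section Sp

variable {F : Type w} [Field F] [Fintype F] [CharP F 2]

/-- `T ≤ L` for `PSp₄(q)` -/
theorem rowT_pSp (h4 : 4 ≤ Fintype.card F) (hFT : ∀ (T : Subgroup (PSp 2 F)), Odd (Nat.card T) → Group.IsSolvable T) :
    RowT (PSp 2 F) := by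
  classical
  have h2p : Fact (Nat.Prime 2) := ⟨Nat.prime_two⟩
  have : Finite (PSp 2 F) := Quotient.finite _
  obtain ⟨t, ht⟩ : ∃ t : F, t ≠ 0 ∧ t ≠ 1 := by
    by_contra h
    push Not at h
    have h1 : (Finset.univ : Finset F) ⊆ {0, 1} := by
      intro x _
      by_cases hx : x = 0
      · simp [hx]
      · simp [h x hx]
    have h2 := Finset.card_le_card h1
    rw [Finset.card_univ] at h2
    have h3 : ({0, 1} : Finset F).card ≤ 2 := Finset.card_le_two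
    omega
  exact (row_model (KInstSp.model 2 F) (AmbT.of_amb amb_Sp 2) (q := SpIdent.adm 1) one_ne_zero ht.1 ht.2 rfl hFT).2

end Sp

end Cfsg.Agent.H1.RowU
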