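import Mathlib
import Cfsg.Agent.H1.WittRow

/-!
# The embedding `Sp_{2m}(F) → Sp_{2m+2}(F)` on Witt frames (helper1)

* `extHom`, `ext_X`, `ext_Z` : extension of isometries by the identity; images of the root elements.
-/

set_option autoImplicit false
set_option linter.unusedSectionVars false

namespace Cfsg.Agent.H1.SpEmb

open Cfsg Cfsg.Agent.ClassicalGeometry.SympBasic
open Cfsg.Agent.TitsThree.Siegel Cfsg.Agent.TitsThree.SpIdent
open Cfsg.Agent.TitsThree.WittFrame

variable {m : ℕ} {F : Type*} [Field F]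

/-- restriction of coordinates -/
def res : (Fin (m + 1) ⊕ Fin (m + 1) → F) →ₗ[F] (Fin m ⊕ Fin m → F) where
  toFun v := fun i => v (Sum.map Fin.succ Fin.succ i)
  map_add' _ _ := rfl
  map_smul' _ _ := rfl

/-- extension by zero -/
def inj : (Fin m ⊕ Fin m → F) →ₗ[F] (Fin (m + 1) ⊕ Fin (m + 1) → F) where
  toFun v := Sum.elim (Fin.cons (0 : F) (fun i => v (Sum.inl i)) : Fin (m + 1) → F)
    (Fin.cons (0 : F) (fun i => v (Sum.inr i)) : Fin (m + 1) → F)
  map_add' v w := by
    funext i
    rcases i with i | i <;> refine Fin.cases ?_ (fun i => ?_) i <;> simp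
  map_smul' c v := by
    funext i
    rcases i with i | i <;> refine Fin.cases ?_ (fun i => ?_) i <;> simp

@[simp] theorem res_apply (v : Fin (m + 1) ⊕ Fin (m + 1) → F) (i : Fin m ⊕ Fin m) :
    res v i = v (Sum.map Fin.succ Fin.succ i) := rfl

theorem res_inj (v : Fin m ⊕ Fin m → F) : res (inj v) = v := by
  funext i
  rcases i with i | i <;> rfl

theorem inj_apply (v : Fin m ⊕ Fin m → F) (i : Fin (m + 1) ⊕ Fin (m + 1)) :
    inj v i = Sum.elim (Fin.cons (0 : F) (fun i => v (Sum.inl i)) : Fin (m + 1) → F)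
    (Fin.cons (0 : F) (fun i => v (Sum.inr i)) : Fin (m + 1) → F) i := rfl

theorem form_inj_left (a : Fin m ⊕ Fin m → F) (w : Fin (m + 1) ⊕ Fin (m + 1) → F) :
    sympForm (m + 1) F (inj a) w = sympForm m F a (res w) := by
  rw [sympForm_eq_sum, sympForm_eq_sum, Fin.sum_univ_succ]
  simp [inj_apply]

theorem form_inj_right (a : Fin m ⊕ Fin m → F) (w : Fin (m + 1) ⊕ Fin (m + 1) → F) :
    sympForm (m + 1) F w (inj a) = sympForm m F (res w) a := by
  rw [sympForm_eq_sum, sympForm_eq_sum, Fin.sum_univ_succ]
  simp [inj_apply]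

/-- the extension of a linear automorphism by the identity -/
def ext (g : (Fin m ⊕ Fin m → F) ≃ₗ[F] (Fin m ⊕ Fin m → F)) :
    (Fin (m + 1) ⊕ Fin (m + 1) → F) ≃ₗ[F] (Fin (m + 1) ⊕ Fin (m + 1) → F) where
  toFun v := v + inj (g (res v) - res v)
  map_add' v w := by
    simp only [map_add, map_sub]
    abel
  map_smul' c v := by
    simp only [map_smul, map_sub, RingHom.id_apply, smul_add, smul_sub]
  invFun v := v + inj (g.symm (res v) - res v)
  left_inv v := by
    simp only [map_add, map_sub, res_inj, LinearEquiv.symm_apply_apply]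
    abel
  right_inv v := by
    simp only [map_add, map_sub, res_inj, LinearEquiv.apply_symm_apply]
    abel

theorem ext_apply (g : (Fin m ⊕ Fin m → F) ≃ₗ[F] (Fin m ⊕ Fin m → F)) (v : Fin (m + 1) ⊕ Fin (m + 1) → F) :
    ext g v = v + inj (g (res v) - res v) := rfl

theorem res_ext (g : (Fin m ⊕ Fin m → F) ≃ₗ[F] (Fin m ⊕ Fin m → F)) (v : Fin (m + 1) ⊕ Fin (m + 1) → F) :
    res (ext g v) = g (res v) := by
  rw [ext_apply, map_add, res_inj]
  abel

theorem ext_mem {g : (Fin m ⊕ Fin m → F) ≃ₗ[F] (Fin m ⊕ Fin m → F)} (hg : g ∈ isos (form m F)) :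
    ext g ∈ isos (form (m + 1) F) := by
  intro v w
  change sympForm (m + 1) F (ext g v) (ext g w) = sympForm (m + 1) F v w
  have h1 : sympForm m F (g (res v)) (g (res w)) = sympForm m F (res v) (res w) := hg _ _
  rw [ext_apply g v, sympForm_add_left, form_inj_left, res_ext, sympForm_sub_left, h1, ext_apply g w,
    sympForm_add_right, form_inj_right, sympForm_sub_right]
  ring

/-- the homomorphism of isometry groups -/
def extHom (m : ℕ) (F : Type*) [Field F] : isos (form m F) →* isos (form (m + 1) F) where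
  toFun g := ⟨ext g.1, ext_mem g.2⟩
  map_one' := by
    apply Subtype.ext
    ext1 v
    change v + inj (res v - res v) = v
    rw [sub_self, map_zero, add_zero]
  map_mul' g k := by
    apply Subtype.ext
    ext1 v
    change v + inj (g.1 (k.1 (res v)) - res v) = ext g.1 (ext k.1 v)
    rw [ext_apply, ext_apply]
    simp only [map_add, map_sub, res_inj]
    abel

theorem extHom_injective : Function.Injective (extHom m F) := by
  intro g k h
  apply Subtype.ext
  ext1 v
  have h1 : ext g.1 (inj v) = ext k.1 (inj v) := congrArg (fun z : isos (form (m + 1) F) => z.1 (inj v)) h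
  rw [ext_apply, ext_apply, res_inj, add_right_inj] at h1
  have h2 := congrArg res h1
  rw [res_inj, res_inj] at h2
  exact sub_left_injective h2

theorem ext_sie (u w : Fin m ⊕ Fin m → F) (c : F) (hu : (form m F).h u u = 0) (hw : (form m F).h u w = 0)
    (hu' : (form (m + 1) F).h (inj u) (inj u) = 0) (hw' : (form (m + 1) F).h (inj u) (inj w) = 0) :
    ext ((form m F).sie u w c hu hw) = (form (m + 1) F).sie (inj u) (inj w) c hu' hw' := by
  ext1 v
  rw [ext_apply, HForm.sie_apply, HForm.sie_apply]
  simp only [form_h, form_ε, form_inj_right, map_add, map_sub, map_smul]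
  abel

/-- the shift of signed indices -/
def sx (x : Fin m × Bool) : Fin (m + 1) × Bool := (x.1.succ, x.2)

theorem inj_b (x : Fin m × Bool) : inj ((frame m F).b x) = (frame (m + 1) F).b (sx x) := by
  obtain ⟨i, s⟩ := x
  cases s
  · change inj (f m F i) = f (m + 1) F i.succ
    funext j
    unfold f
    rcases j with j | j
    · refine Fin.cases ?_ (fun j => ?_) j
      · simp [inj_apply]
      · simp [inj_apply, Pi.single_apply]
    · refine Fin.cases ?_ (fun j => ?_) j
      · simp [inj_apply]
      · simp [inj_apply, Pi.single_apply]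
  · change inj (e m F i) = e (m + 1) F i.succ
    funext j
    unfold e
    rcases j with j | j
    · refine Fin.cases ?_ (fun j => ?_) j
      · simp [inj_apply]
      · simp [inj_apply, Pi.single_apply]
    · refine Fin.cases ?_ (fun j => ?_) j
      · simp [inj_apply]
      · simp [inj_apply, Pi.single_apply]

theorem ext_X (x y : Fin m × Bool) (t : F) :
    ext ((frame m F).X x y t) = (frame (m + 1) F).X (sx x) (sx y) t := by
  by_cases h : x.1 ≠ y.1
  · have h' : (sx x).1 ≠ (sx y).1 := fun e => h (Fin.succ_injective _ e)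
    rw [Frame.X_eq _ h, Frame.X_eq _ h', ext_sie]
    · refine HForm.sie_congr _ _ _ _ _ (inj_b x) ?_ rfl
      rw [map_smul, inj_b]
      rfl
    · exact sympForm_self _
    · change sympForm (m + 1) F _ _ = 0
      rw [form_inj_left, res_inj]
      exact (frame m F).h_smul_b h _
  · have h' : ¬ (sx x).1 ≠ (sx y).1 := fun e => h fun e' => e (by rw [sx, sx, e'])
    rw [Frame.X, Frame.X, dif_neg h, dif_neg h']
    exact congrArg Subtype.val (extHom m F).map_one

theorem ext_Z (x : Fin m × Bool) (c : F) :
    ext ((frame m F).Z x (adm c)) = (frame (m + 1) F).Z (sx x) (adm c) := by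
  rw [Frame.Z, Frame.Z, ext_sie]
  · exact HForm.sie_congr _ _ _ _ _ (inj_b x) (map_zero _) rfl
  · exact sympForm_self _
  · change sympForm (m + 1) F _ (inj 0) = 0
    rw [map_zero]
    exact sympForm_zero_right _

end Cfsg.Agent.H1.SpEmb
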