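import Mathlib
import Cfsg.Agent.H1.SpEmb
import Cfsg.Agent.H1.RowPSLFive
import Cfsg.Agent.H1.RowU
import Cfsg.Agent.S0778
import Cfsg.Agent.S1058

/-!
# `Sp₆(2)`: `ℒ(G, T)` (helper1)
-/

set_option autoImplicit false
set_option linter.unusedSectionVars false

namespace Cfsg.Agent.H1.SpSix

open Cfsg Cfsg.Agent.ClassicalGeometry.SympBasic
open Matrix (SpecialLinearGroup ProjectiveSpecialLinearGroup GeneralLinearGroup)
open Cfsg.Agent.ChevalleyStructure.CoxeterGeom Cfsg.Agent.Tits.Roots Cfsg.Agent.Nodes.TypeC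
open Cfsg.Agent.Nodes.Comb Cfsg.Agent.Nodes.Reps Cfsg.Agent.Nodes.WittRoot Cfsg.Agent.Nodes.BNOf
open Cfsg.Agent.TitsThree Cfsg.Agent.TitsThree.Siegel Cfsg.Agent.TitsThree.WittFrame Cfsg.Agent.TitsThree.WittWeyl
open Cfsg.Agent.TitsThree.FrameCN
open Cfsg.Agent.TitsThree.SpIdent (form frame adm isos toPSp toSp ofSp eq_adm toPSp_surjective exists_smul_of_toPSp_eq_one span_ef form_h)
open Cfsg.Agent.Nodes.WittRGD (Tor rg_sr rg_neg_sr)
open Cfsg.Agent.Nodes.WittAll (AmbT)
open Cfsg.Agent.H1.RgdRow Cfsg.Agent.H1.RankTwo Cfsg.Agent.H1.RowPSLFive Cfsg.Agent.H1.SpEmb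
open Cfsg.Agent.Tits.Core Cfsg.Agent.Tits.RootComb Cfsg.Agent.Tits.Exchange Cfsg.Agent.Nodes.StabComb
  Cfsg.Agent.Nodes.Bruhat Cfsg.Agent.Nodes.OppDec Cfsg.Agent.Nodes.LeviDec

universe u v w

section dihedral

/-- two groups of order at most two generate a solvable group -/
theorem solvable_pair {Y : Type*} [Group Y] {A B : Subgroup Y} {a b : Y} (ha : a * a = 1) (hb : b * b = 1)
    (hA : ∀ x ∈ A, x = 1 ∨ x = a) (hB : ∀ x ∈ B, x = 1 ∨ x = b) : Group.IsSolvable ↥(A ⊔ B) := by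
  have hai : a⁻¹ = a := inv_eq_of_mul_eq_one_right ha
  have hbi : b⁻¹ = b := inv_eq_of_mul_eq_one_right hb
  have key : a * (a * b) * a⁻¹ = (a * b)⁻¹ := by
    rw [_root_.mul_inv_rev, hai, hbi, ← mul_assoc a a b, ha, one_mul]
  have hn : Subgroup.zpowers a ≤ Subgroup.normalizer ((Subgroup.zpowers (a * b) : Subgroup Y) : Set Y) := by
    rw [Subgroup.zpowers_le]
    rw [mem_normalizer_iff_cj]
    unfold cj
    rw [MonoidHom.map_zpowers]
    change Subgroup.zpowers (a * (a * b) * a⁻¹) = _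
    rw [key, Subgroup.zpowers_inv]
  have hz : ∀ c : Y, Group.IsSolvable ↥(Subgroup.zpowers c) := fun c =>
    Group.isSolvable_of_comm fun x y => IsMulCommutative.is_comm.comm x y
  have h1 : Group.IsSolvable ↥(Subgroup.zpowers a ⊔ Subgroup.zpowers (a * b)) :=
    isSolvable_sup (hz _) (hz _) hn
  refine solvable_le h1 (sup_le ?_ ?_)
  · intro x hx
    rcases hA x hx with rfl | rfl
    · exact one_mem _
    · exact Subgroup.mem_sup_left (Subgroup.mem_zpowers x)
  · intro x hx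
    rcases hB x hx with rfl | rfl
    · exact one_mem _
    · have e : x = a⁻¹ * (a * x) := by group
      have h3 : a⁻¹ * (a * x) ∈ Subgroup.zpowers a ⊔ Subgroup.zpowers (a * x) :=
        mul_mem (inv_mem (Subgroup.mem_sup_left (Subgroup.mem_zpowers a)))
          (Subgroup.mem_sup_right (Subgroup.mem_zpowers _))
      rwa [← e] at h3

end dihedral

variable {F : Type} [Field F] [Fintype F] [CharP F 2] (h2 : Fintype.card F = 2)

/-- the model -/
noncomputable abbrev MM (F : Type) [Field F] : Model (frame 3 F) (PSp 3 F) := KInstSp.model 3 F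

/-- its root groups -/
noncomputable abbrev XS (F : Type) [Field F] (x : Fin 3 → ℤ) : Subgroup (PSp 3 F) := Nodes.WittModel.X (MM F) x

noncomputable abbrev TS (F : Type) [Field F] : Subgroup (PSp 3 F) := Nodes.WittModel.T (MM F)

abbrev cs : CoxeterSystem (CoxeterMatrix.B 3) (CoxeterMatrix.B 3).Group := (CoxeterMatrix.B 3).toCoxeterSystem

theorem mem_XS_of_X {x : Fin 3 → ℤ} {a b : Fin 3 × Bool} (hab : a.1 ≠ b.1) (e : ee x = wt a + wt b) (t : F) :
    toPSp (SpGen.Xi a b t) ∈ XS F x := by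
  refine Nodes.WittModel.mem_X_of (MM F) (SpGen.Xi a b t).2 ?_
  rw [rg_eq _ (Or.inl hab) e, PG_ne _ hab]
  exact ⟨t, rfl⟩

theorem mem_XS_of_Z {x : Fin 3 → ℤ} {a : Fin 3 × Bool} (e : ee x = wt a + wt a) (c : F) :
    toPSp (SpGen.Zi a (adm c)) ∈ XS F x := by
  refine Nodes.WittModel.mem_X_of (MM F) (SpGen.Zi a (adm c)).2 ?_
  rw [rg_eq _ (Or.inr rfl) e, PG_self]
  exact ⟨_, rfl⟩

/-- the elements of the root groups -/
theorem mem_XS {x : Fin 3 → ℤ} (hx : IsRoot cs (isCartan 3) x) {k : PSp 3 F} (hk : k ∈ XS F x) :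
    ∃ a b : Fin 3 × Bool, Ok a b ∧ ee x = wt a + wt b ∧
      ((a.1 ≠ b.1 ∧ ∃ t, k = toPSp (SpGen.Xi a b t)) ∨ (a = b ∧ ∃ c, k = toPSp (SpGen.Zi a (adm c)))) := by
  obtain ⟨a, b, hab, e⟩ := exists_of_isRoot cs hx
  refine ⟨a, b, hab, e, ?_⟩
  obtain ⟨g, hg, hgx, rfl⟩ := (Nodes.WittModel.mem_X (MM F)).1 hk
  rw [rg_eq _ hab e] at hgx
  rcases hab with h | rfl
  · rw [PG_ne _ h] at hgx
    obtain ⟨t, rfl⟩ := hgx
    exact Or.inl ⟨h, t, rfl⟩
  · rw [PG_self] at hgx
    obtain ⟨p, rfl⟩ := hgx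
    refine Or.inr ⟨rfl, p.c, ?_⟩
    change toPSp ⟨(frame 3 F).Z a p, hg⟩ = _
    congr 1
    apply Subtype.ext
    change (frame 3 F).Z a p = (frame 3 F).Z a (adm p.c)
    rw [← eq_adm]

/-! ### `ε`-coordinates -/

theorem ee_zero (x : Fin 3 → ℤ) : ee x 0 = x 0 := by
  simp [ee, Fin.sum_univ_three, bt_apply]

theorem ee_one (x : Fin 3 → ℤ) : ee x 1 = x 1 - x 0 := by
  simp [ee, Fin.sum_univ_three, bt_apply]
  ring

theorem ee_two (x : Fin 3 → ℤ) : ee x 2 = 2 * x 2 - x 1 := by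
  simp [ee, Fin.sum_univ_three, bt_apply]
  ring

theorem wt0_of {a b : Fin 3 × Bool} (hab : Ok a b) (h : (wt a + wt b) 0 = 0) : a.1 ≠ 0 ∧ b.1 ≠ 0 := by
  revert hab h
  revert a b
  unfold Ok
  decide +kernel

theorem sgn_of {a b : Fin 3 × Bool} (hab : Ok a b)
    (h : (wt a + wt b) 0 + (wt a + wt b) 1 + (wt a + wt b) 2 = 0) : a.1 ≠ b.1 ∧ a.2 ≠ b.2 := by
  revert hab h
  revert a b
  unfold Ok
  decide +kernel

/-! ### The node set `{1, 2}` -/

/-- `Sp₄(F) → PSp₆(F)` -/
noncomputable def phiB (F : Type) [Field F] : isos (form 2 F) →* PSp 3 F := toPSp.comp (extHom 2 F)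

theorem phiB_X (a b : Fin 2 × Bool) (t : F) : phiB F (SpGen.Xi a b t) = toPSp (SpGen.Xi (sx a) (sx b) t) := by
  change toPSp (extHom 2 F _) = _
  congr 1
  exact Subtype.ext (ext_X a b t)

theorem phiB_Z (a : Fin 2 × Bool) (c : F) : phiB F (SpGen.Zi a (adm c)) = toPSp (SpGen.Zi (sx a) (adm c)) := by
  change toPSp (extHom 2 F _) = _
  congr 1
  exact Subtype.ext (ext_Z a c)

theorem exists_sx {a : Fin 3 × Bool} (ha : a.1 ≠ 0) : ∃ a' : Fin 2 × Bool, a = sx a' := by
  revert ha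
  revert a
  unfold sx
  decide +kernel

theorem sx_ok : ∀ a b : Fin 2 × Bool, Ok a b → Ok (sx a) (sx b) := by
  unfold sx Ok
  decide +kernel

theorem wt_sx_zero : ∀ a b : Fin 2 × Bool, (wt (sx a) + wt (sx b)) 0 = 0 := by
  unfold sx
  decide +kernel

theorem exists_root_B (a b : Fin 2 × Bool) (hab : Ok a b) :
    ∃ x ∈ RootsJ cs (isCartan 3) {1, 2}, ee x = wt (sx a) + wt (sx b) := by
  obtain ⟨x, hx, e⟩ := rt_of_ok (cs := cs) (sx_ok a b hab)
  refine ⟨x, ⟨hx, fun k hk => ?_⟩, e⟩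
  have h0 : x 0 = 0 := by
    rw [← ee_zero x, e]
    exact wt_sx_zero a b
  fin_cases k
  · exact h0
  · exact absurd (by simp) hk
  · exact absurd (by simp) hk

theorem phiB_X_mem (a b : Fin 2 × Bool) (hab : a.1 ≠ b.1) (t : F) :
    phiB F (SpGen.Xi a b t) ∈ RGD.Sup (XS F) (RootsJ cs (isCartan 3) {1, 2}) := by
  obtain ⟨x, hx, e⟩ := exists_root_B a b (Or.inl hab)
  rw [phiB_X]
  exact RGD.le_Sup (X := XS F) hx (mem_XS_of_X (fun e => hab (Fin.succ_injective _ e)) e t)

theorem phiB_Z_mem (a : Fin 2 × Bool) (c : F) :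
    phiB F (SpGen.Zi a (adm c)) ∈ RGD.Sup (XS F) (RootsJ cs (isCartan 3) {1, 2}) := by
  obtain ⟨x, hx, e⟩ := exists_root_B a a (Or.inr rfl)
  rw [phiB_Z]
  exact RGD.le_Sup (X := XS F) hx (mem_XS_of_Z e c)

theorem range_phiB : (phiB F).range = RGD.Sup (XS F) (RootsJ cs (isCartan 3) {1, 2}) := by
  apply le_antisymm
  · have h := SpGen.isos_eq_of_simple (F := F) (1 : Fin 2)
      ((RGD.Sup (XS F) (RootsJ cs (isCartan 3) {1, 2})).comap (phiB F))
      (fun i j hij t => ⟨phiB_X_mem _ _ (fun e => by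
          have : i = j := e
          rw [this] at hij
          omega) t, phiB_X_mem _ _ (fun e => by
          have : j = i := e
          rw [this] at hij
          omega) t⟩)
      (fun c => ⟨phiB_Z_mem _ c, phiB_Z_mem _ c⟩)
    rintro _ ⟨g, rfl⟩
    have h1 : g ∈ (RGD.Sup (XS F) (RootsJ cs (isCartan 3) {1, 2})).comap (phiB F) := by
      rw [h]
      exact Subgroup.mem_top _
    exact h1
  · refine RGD.Sup_le fun x hx k hk => ?_
    obtain ⟨a, b, hab, e, h⟩ := mem_XS hx.1 hk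
    have h0 : (wt a + wt b) 0 = 0 := by
      rw [← e, ee_zero]
      exact hx.2 0 (by simp)
    obtain ⟨ha, hb⟩ := wt0_of hab h0
    obtain ⟨a', rfl⟩ := exists_sx ha
    obtain ⟨b', rfl⟩ := exists_sx hb
    rcases h with ⟨-, t, rfl⟩ | ⟨-, c, rfl⟩
    · exact ⟨SpGen.Xi a' b' t, phiB_X a' b' t⟩
    · exact ⟨SpGen.Zi a' (adm c), phiB_Z a' c⟩

include h2 in
theorem toPSp_injective {m : ℕ} : Function.Injective (toPSp (m := m) (F := F)) := by
  rw [← MonoidHom.ker_eq_bot_iff, eq_bot_iff]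
  intro g hg
  obtain ⟨a, ha, h⟩ := exists_smul_of_toPSp_eq_one (MonoidHom.mem_ker.1 hg)
  have h1 : a = 1 := by
    apply eq_one_of_ne h2
    rintro rfl
    rw [zero_pow (by norm_num)] at ha
    exact zero_ne_one ha
  rw [Subgroup.mem_bot]
  apply Subtype.ext
  ext1 v
  rw [h v, h1, one_smul]
  rfl

include h2 in
theorem exists_equiv_B : Nonempty (↥(RGD.Sup (XS F) (RootsJ cs (isCartan 3) {1, 2})) ≃* Equiv.Perm (Fin 6)) := by
  rw [← range_phiB]
  have e1 : isos (form 2 F) ≃* (phiB F).range :=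
    MonoidHom.ofInjective ((toPSp_injective h2).comp extHom_injective)
  have e2 : isos (form 2 F) ≃* PSp 2 F := MulEquiv.ofBijective toPSp ⟨toPSp_injective h2, toPSp_surjective⟩
  obtain ⟨e3⟩ := ChevalleyStructure.B2Sp4.chevB2_equiv_PSp F
  obtain ⟨e4⟩ := Cfsg.Agent.S1058.result (F := F) h2
  exact ⟨(e1.symm.trans e2).trans (e3.symm.trans e4)⟩

/-! ### The node set `{0, 1}` -/

open Cfsg.Agent.Nodes.RGDTypeA Cfsg.Agent.TitsThree.KSideA Cfsg.Agent.LieClassical.SLGen in
/-- the transvections in the symplectic group -/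
theorem toSp_X {a b : Fin 3} (hab : a ≠ b) (t : F) :
    toSp (SpGen.Xi (b, true) (a, false) (-t)) = S0778.blkHom 3 (SpecialLinearGroup.toGL (tv a b t)) := by
  apply Subtype.ext
  rw [← Matrix.mulVec_injective.eq_iff]
  funext v
  rw [SpIdent.toSp_mulVec]
  have h1 : ((b, true) : Fin 3 × Bool).1 ≠ ((a, false) : Fin 3 × Bool).1 := hab.symm
  change (frame 3 F).X (b, true) (a, false) (-t) v = _
  rw [Frame.X_eq _ h1, HForm.sie_apply]
  have e1 : ((S0778.blkHom 3 (SpecialLinearGroup.toGL (tv a b t)) : Matrix.symplecticGroup (Fin 3) F) :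
      Matrix (Fin 3 ⊕ Fin 3) (Fin 3 ⊕ Fin 3) F) = Matrix.fromBlocks (1 + Matrix.single a b t) 0 0
        ((1 + Matrix.single a b (-t)).transpose) := by
    change Matrix.fromBlocks (tv a b t).1 0 0 ((((SpecialLinearGroup.toGL (tv a b t))⁻¹ : GL (Fin 3) F) :
      Matrix (Fin 3) (Fin 3) F).transpose) = _
    rw [← map_inv, ← tv_neg]
    change Matrix.fromBlocks (tv a b t).1 0 0 ((tv a b (-t)).1.transpose) = _
    rw [tv_val hab, tv_val hab]
  rw [e1, Matrix.fromBlocks_mulVec]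
  have hs : (frame 3 F).sc (a, false) (-t) = -t := by
    simp [Frame.sc, Frame.η]
  have hb : (form 3 F).h v ((frame 3 F).b (b, true)) = -v (Sum.inl b) := by
    change sympForm 3 F v (Pi.single (Sum.inr b) 1) = _
    rw [sympForm_single_inr_right]
  have ha : (form 3 F).h v ((frame 3 F).sc (a, false) (-t) • (frame 3 F).b (a, false)) = -t * v (Sum.inr a) := by
    rw [hs]
    change sympForm 3 F v ((-t) • Pi.single (Sum.inl a) 1) = _
    rw [sympForm_smul_right, sympForm_single_inl_right]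
  rw [hb, ha, hs]
  funext j
  rcases j with j | j
  · change v (Sum.inl j) + (-v (Sum.inl b)) * (-t * (Pi.single (Sum.inl a) 1 : Fin 3 ⊕ Fin 3 → F) (Sum.inl j)) -
      ((form 3 F).ε⁻¹ * (-t * v (Sum.inr a))) * (Pi.single (Sum.inr b) 1 : Fin 3 ⊕ Fin 3 → F) (Sum.inl j) +
      (0 * (-v (Sum.inl b))) * (Pi.single (Sum.inr b) 1 : Fin 3 ⊕ Fin 3 → F) (Sum.inl j) = _
    simp only [Sum.elim_inl, Matrix.add_mulVec, Matrix.one_mulVec, Matrix.zero_mulVec, add_zero, Pi.add_apply,
      Function.comp_apply, Matrix.single_mulVec]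
    simp only [Pi.single_apply, Function.update_apply, Sum.inl.injEq, reduceCtorEq, if_false, mul_zero, sub_zero,
      add_zero, Pi.zero_apply]
    split_ifs <;> ring
  · change v (Sum.inr j) + (-v (Sum.inl b)) * (-t * (Pi.single (Sum.inl a) 1 : Fin 3 ⊕ Fin 3 → F) (Sum.inr j)) -
      ((form 3 F).ε⁻¹ * (-t * v (Sum.inr a))) * (Pi.single (Sum.inr b) 1 : Fin 3 ⊕ Fin 3 → F) (Sum.inr j) +
      (0 * (-v (Sum.inl b))) * (Pi.single (Sum.inr b) 1 : Fin 3 ⊕ Fin 3 → F) (Sum.inr j) = _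
    simp only [Sum.elim_inr, Matrix.transpose_add, Matrix.transpose_one, Matrix.transpose_single, Matrix.add_mulVec,
      Matrix.one_mulVec, Matrix.zero_mulVec, zero_add, Pi.add_apply,
      Function.comp_apply, Matrix.single_mulVec]
    simp only [Pi.single_apply, Function.update_apply, Sum.inr.injEq, reduceCtorEq, if_false, mul_zero,
      add_zero, Pi.zero_apply, SpIdent.form_ε]
    split_ifs <;> ring

/-- the isometry group is the symplectic group -/
noncomputable def isoSp (F : Type) [Field F] : isos (form 3 F) ≃* Matrix.symplecticGroup (Fin 3) F :=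
  MulEquiv.ofBijective toSp ⟨SpIdent.toSp_injective, SpIdent.toSp_surjective⟩

/-- `SL₃(F) → isometries` -/
noncomputable def lin (F : Type) [Field F] : SpecialLinearGroup (Fin 3) F →* isos (form 3 F) :=
  ((isoSp F).symm.toMonoidHom).comp ((S0778.blkHom 3).comp SpecialLinearGroup.toGL)

theorem lin_injective : Function.Injective (lin F) := by
  refine (isoSp F).symm.injective.comp ((S0778.blkHom_injective 3).comp ?_)
  exact SpecialLinearGroup.toGL_injective

open Cfsg.Agent.Nodes.RGDTypeA Cfsg.Agent.TitsThree.KSideA Cfsg.Agent.LieClassical.SLGen in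
theorem lin_tv {a b : Fin 3} (hab : a ≠ b) (t : F) : lin F (tv a b t) = SpGen.Xi (b, true) (a, false) (-t) := by
  change (isoSp F).symm (S0778.blkHom 3 (SpecialLinearGroup.toGL (tv a b t))) = _
  rw [MulEquiv.symm_apply_eq]
  exact (toSp_X hab t).symm

/-- `SL₃(F) → PSp₆(F)` -/
noncomputable def phiA (F : Type) [Field F] : SpecialLinearGroup (Fin 3) F →* PSp 3 F := toPSp.comp (lin F)

theorem wt_sum : ∀ a b : Fin 3 × Bool, a.2 ≠ b.2 → (wt a + wt b) 0 + (wt a + wt b) 1 + (wt a + wt b) 2 = 0 := by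
  decide +kernel

theorem exists_root_A {a b : Fin 3 × Bool} (hab : a.1 ≠ b.1) (hs : a.2 ≠ b.2) :
    ∃ x ∈ RootsJ cs (isCartan 3) {0, 1}, ee x = wt a + wt b := by
  obtain ⟨x, hx, e⟩ := rt_of_ok (cs := cs) (Or.inl hab : Ok a b)
  refine ⟨x, ⟨hx, fun k hk => ?_⟩, e⟩
  have h0 : x 2 = 0 := by
    have h1 := wt_sum a b hs
    rw [← e, ee_zero, ee_one, ee_two] at h1
    omega
  fin_cases k
  · exact absurd (by simp) hk
  · exact absurd (by simp) hk
  · exact h0

open Cfsg.Agent.Nodes.RGDTypeA Cfsg.Agent.TitsThree.KSideA Cfsg.Agent.LieClassical.SLGen in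
theorem range_phiA : (phiA F).range = RGD.Sup (XS F) (RootsJ cs (isCartan 3) {0, 1}) := by
  apply le_antisymm
  · rw [MonoidHom.range_eq_map, ← closure_transvections (ι := Fin 3) (F := F), MonoidHom.map_closure,
      Subgroup.closure_le]
    rintro _ ⟨_, ⟨a, b, hab, t, rfl⟩, rfl⟩
    obtain ⟨x, hx, e⟩ := exists_root_A (a := (b, true)) (b := (a, false)) hab.symm (by simp)
    rw [← tv_of_ne hab]
    change toPSp (lin F (tv a b t)) ∈ _
    rw [lin_tv hab]
    exact RGD.le_Sup (X := XS F) hx (mem_XS_of_X hab.symm e _)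
  · refine RGD.Sup_le fun x hx k hk => ?_
    obtain ⟨a, b, hab, e, h⟩ := mem_XS hx.1 hk
    have h0 : (wt a + wt b) 0 + (wt a + wt b) 1 + (wt a + wt b) 2 = 0 := by
      rw [← e, ee_zero, ee_one, ee_two]
      have := hx.2 2 (by simp)
      omega
    obtain ⟨h1, h2⟩ := sgn_of hab h0
    rcases h with ⟨-, t, rfl⟩ | ⟨he, -⟩
    · obtain ⟨i, s⟩ := a
      obtain ⟨j, u⟩ := b
      have h1' : i ≠ j := h1
      cases s <;> cases u
      · exact absurd rfl h2
      · refine ⟨tv i j (-(-((form 3 F).ε⁻¹ * (frame 3 F).η (i, false) * (frame 3 F).η (j, true) * (form 3 F).σ t))), ?_⟩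
        change toPSp (lin F (tv i j _)) = _
        rw [lin_tv h1', _root_.neg_neg]
        congr 1
        apply Subtype.ext
        exact ((frame 3 F).X_swap (x := (i, false)) (y := (j, true)) h1 t).symm
      · refine ⟨tv j i (-t), ?_⟩
        change toPSp (lin F (tv j i _)) = _
        rw [lin_tv h1'.symm, _root_.neg_neg]
      · exact absurd rfl h2
    · exact absurd (congrArg Prod.fst he) h1

/-! ### The torus and the solvable node sets -/

include h2 in
theorem TS_eq_bot : TS F = ⊥ := by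
  rw [eq_bot_iff]
  rintro _ ⟨⟨g, hg⟩, hgT, rfl⟩
  obtain ⟨-, hm⟩ := Subgroup.mem_subgroupOf.1 hgT
  have h1 : g = 1 := by
    apply LinearEquiv.toLinearMap_injective
    apply LinearMap.ext_on_range (v := fun j => (Pi.single j 1 : Fin 3 ⊕ Fin 3 → F))
    · exact (Pi.basisFun F (Fin 3 ⊕ Fin 3)).span_eq ▸ (by congr 1; ext; simp)
    · intro j
      rcases j with j | j
      · obtain ⟨l, hl, e⟩ := hm (j, false)
        rw [eq_one_of_ne h2 hl, one_smul] at e
        exact e
      · obtain ⟨l, hl, e⟩ := hm (j, true)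
        rw [eq_one_of_ne h2 hl, one_smul] at e
        exact e
  subst h1
  rw [Subgroup.mem_bot]
  exact map_one _

include h2 in
theorem LJ_eq (J : Set (Fin 3)) : LJ cs (isCartan 3) (TS F) (XS F) J = RGD.Sup (XS F) (RootsJ cs (isCartan 3) J) := by
  unfold LJ
  rw [TS_eq_bot h2, bot_sup_eq]

/-- a root group has order at most two -/
theorem exists_two (h2 : Fintype.card F = 2) {x : Fin 3 → ℤ} (hx : IsRoot cs (isCartan 3) x) :
    ∃ a : PSp 3 F, a * a = 1 ∧ ∀ y ∈ XS F x, y = 1 ∨ y = a := by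
  obtain ⟨a, b, hab, e⟩ := exists_of_isRoot cs hx
  rcases hab with h | rfl
  · refine ⟨toPSp (SpGen.Xi a b 1), ?_, ?_⟩
    · rw [← map_mul]
      have h3 : SpGen.Xi a b (1 : F) * SpGen.Xi a b 1 = 1 := by
        apply Subtype.ext
        change (frame 3 F).X a b 1 * (frame 3 F).X a b 1 = 1
        rw [← Frame.X_add, CharTwo.add_self_eq_zero, Frame.X_zero]
      rw [h3, map_one]
    · intro y hy
      obtain ⟨g, hg, hgx, rfl⟩ := (Nodes.WittModel.mem_X (MM F)).1 hy
      rw [rg_eq _ (Or.inl h) e, PG_ne _ h] at hgx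
      obtain ⟨t, rfl⟩ := hgx
      rcases eq_or_ne t 0 with rfl | ht
      · left
        have h3 : (⟨(frame 3 F).X a b 0, hg⟩ : (MM F).I) = 1 := Subtype.ext (Frame.X_zero _ _ _)
        rw [h3, map_one]
      · right
        obtain rfl : t = 1 := eq_one_of_ne h2 ht
        rfl
  · refine ⟨toPSp (SpGen.Zi a (adm 1)), ?_, ?_⟩
    · rw [← map_mul]
      have h3 : SpGen.Zi a (adm (1 : F)) * SpGen.Zi a (adm 1) = 1 := by
        apply Subtype.ext
        change (frame 3 F).Z a (adm 1) * (frame 3 F).Z a (adm 1) = 1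
        rw [← Frame.Z_mul, ← SpIdent.adm_add, CharTwo.add_self_eq_zero]
        exact Frame.Z_one _ _
      rw [h3, map_one]
    · intro y hy
      obtain ⟨g, hg, hgx, rfl⟩ := (Nodes.WittModel.mem_X (MM F)).1 hy
      rw [rg_eq _ (Or.inr rfl) e, PG_self] at hgx
      obtain ⟨p, rfl⟩ := hgx
      rcases eq_or_ne p.c 0 with h0 | h0
      · left
        have hp : p = 1 := by
          rw [eq_adm p, h0]
          rfl
        subst hp
        have h3 : (⟨(frame 3 F).Z a 1, hg⟩ : (MM F).I) = 1 := Subtype.ext (Frame.Z_one _ _)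
        rw [h3, map_one]
      · right
        have hp : p = adm 1 := by
          rw [eq_adm p, eq_one_of_ne h2 h0]
        subst hp
        rfl

theorem solvable_node (h2 : Fintype.card F = 2) (i : Fin 3) : Group.IsSolvable ↥(XS F (sr i) ⊔ XS F (-sr i)) := by
  obtain ⟨a, ha, hA⟩ := exists_two h2 (isRoot_sr cs (isCartan 3) i)
  obtain ⟨b, hb, hB⟩ := exists_two h2 (isRoot_sr cs (isCartan 3) i).neg
  exact solvable_pair ha hb hA hB

theorem wt_support : ∀ a b : Fin 3 × Bool, ¬ ((wt a + wt b) 0 ≠ 0 ∧ (wt a + wt b) 1 ≠ 0 ∧ (wt a + wt b) 2 ≠ 0) := by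
  decide +kernel

theorem not_both {z : Fin 3 → ℤ} (hz : IsRoot cs (isCartan 3) z) (h1 : z 1 = 0) : z 0 = 0 ∨ z 2 = 0 := by
  obtain ⟨a, b, hab, e⟩ := exists_of_isRoot cs hz
  by_contra h
  push Not at h
  refine wt_support a b ?_
  rw [← e, ee_zero, ee_one, ee_two, h1]
  refine ⟨h.1, ?_, ?_⟩
  · have := h.1
    omega
  · have := h.2
    omega

theorem btw_eq_bot {x y : Fin 3 → ℤ} (hx : x = sr 0 ∨ x = -sr 0) (hy : y = sr 2 ∨ y = -sr 2) :
    btw cs (isCartan 3) (XS F) x y = ⊥ := by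
  rw [eq_bot_iff]
  refine iSup_le ?_
  rintro ⟨z, hz, m, a, b, hm, ha, hb, e⟩
  exfalso
  have e0 := congrFun e 0
  have e1 := congrFun e 1
  have e2 := congrFun e 2
  simp only [Pi.smul_apply, Pi.add_apply, smul_eq_mul] at e0 e1 e2
  have s00 : sr (0 : Fin 3) 0 = 1 := by decide +kernel
  have s01 : sr (0 : Fin 3) 1 = 0 := by decide +kernel
  have s02 : sr (0 : Fin 3) 2 = 0 := by decide +kernel
  have s20 : sr (2 : Fin 3) 0 = 0 := by decide +kernel
  have s21 : sr (2 : Fin 3) 1 = 0 := by decide +kernel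
  have s22 : sr (2 : Fin 3) 2 = 1 := by decide +kernel
  have h1 : z 1 = 0 := by
    rcases hx with rfl | rfl <;> rcases hy with rfl | rfl <;>
      simp only [Pi.neg_apply, s01, s21, neg_zero, mul_zero, add_zero] at e1 <;>
      exact (mul_eq_zero.1 e1).resolve_left hm.ne'
  rcases not_both hz h1 with h | h
  · rw [h, mul_zero] at e0
    rcases hx with rfl | rfl <;> rcases hy with rfl | rfl <;>
      simp only [Pi.neg_apply, s00, s20] at e0 <;> omega
  · rw [h, mul_zero] at e2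
    rcases hx with rfl | rfl <;> rcases hy with rfl | rfl <;>
      simp only [Pi.neg_apply, s02, s22] at e2 <;> omega

theorem hA : AmbT (frame 3 F) 2 (MM F).I := by
  have h2p : Fact (Nat.Prime 2) := ⟨Nat.prime_two⟩
  exact AmbT.of_amb Nodes.WittU.amb_Sp 2

/-- the reflections -/
noncomputable def nS (F : Type) [Field F] [Fintype F] [CharP F 2] (i : Fin 3) : PSp 3 F :=
  (MM F).φ ⟨Nodes.WittRGD.nn (frame 3 F) (adm 1) i, Nodes.WittAll.nn_mem hA (adm 1) i⟩

theorem rgdS : RGD cs (isCartan 3) 2 (TS F) (nS F) (XS F) := by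
  have h2p : Fact (Nat.Prime 2) := ⟨Nat.prime_two⟩
  exact Nodes.WittAll.rgdC_model (MM F) hA (p0 := adm 1) one_ne_zero cs

theorem G1S : Nodes.RGDLib.G1 cs (isCartan 3) (XS F) = ⊤ := Nodes.WittModel.G1_eq_top (MM F) (by norm_num) cs

open Cfsg.Agent.KFacts.RgdBorelTits Cfsg.Agent.Nodes.RGDLib Cfsg.Agent.KFacts.RgdFilt Cfsg.Agent.KFacts.RgdFiltWitt Cfsg.Agent.Nodes.WittAll in
theorem exists_filtS : ∃ Φ : (Fin 3 → ℤ) → ℝ → Subgroup (PSp 3 F), Cfsg.Agent.KFacts.RgdBorelTits.Filt (rgdS (F := F)) Φ := by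
  have h2p : Fact (Nat.Prime 2) := ⟨Nat.prime_two⟩
  have hq : (adm (1 : F) : (frame 3 F).Adm).c ≠ 0 := one_ne_zero
  have hA := hA (F := F)
  have : Finite ((Fin 3 ⊕ Fin 3 → F) ≃ₗ[F] (Fin 3 ⊕ Fin 3 → F)) :=
    Finite.of_injective (fun g : (Fin 3 ⊕ Fin 3 → F) ≃ₗ[F] (Fin 3 ⊕ Fin 3 → F) => (g : _ → _)) DFunLike.coe_injective
  have : Finite (CoxeterMatrix.B 3).Group := finite_W cs
  have hF : Filt (rgdC hA hq cs) (F2 (zr (frame 3 F)) (rg (frame 3 F))) :=
    (two hA (T := Nodes.WittRGD.Tor (frame 3 F) (MM F).I) (fun i => ⟨Nodes.WittAll.nn_mem hA (adm 1) i,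
      Nodes.WittRGD.mono_nn hq i⟩) (fun _ ht => ⟨ht.1, ht.2⟩) _).filt
  have hF1 := filt_restrict hF (MM F).I (fun x _ => hA.rg_le x)
    (n' := fun i => (⟨Nodes.WittRGD.nn (frame 3 F) (adm 1) i, Nodes.WittAll.nn_mem hA (adm 1) i⟩ : (MM F).I)) (fun _ => rfl)
    (rgd_restrict (rgdC hA hq _) (MM F).I (fun x _ => hA.rg_le x) (fun i => Nodes.WittAll.nn_mem hA (adm 1) i))
  exact ⟨_, filt_map hF1 (MM F).φ rgdS⟩

theorem solvable_02 (h2 : Fintype.card F = 2) :
    Group.IsSolvable ↥(LJ cs (isCartan 3) (TS F) (XS F) ({0, 2} : Set (Fin 3))) := by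
  rw [LJ_eq h2]
  have hcomm : ∀ x y : Fin 3 → ℤ, (x = sr 0 ∨ x = -sr 0) → (y = sr 2 ∨ y = -sr 2) →
      XS F x ≤ Subgroup.centralizer (XS F y : Set (PSp 3 F)) := by
    intro x y hx hy u hu
    rw [Subgroup.mem_centralizer_iff]
    intro v hv
    have hxr : IsRoot cs (isCartan 3) x := by
      rcases hx with rfl | rfl
      · exact isRoot_sr _ _ _
      · exact (isRoot_sr _ _ _).neg
    have hyr : IsRoot cs (isCartan 3) y := by
      rcases hy with rfl | rfl
      · exact isRoot_sr _ _ _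
      · exact (isRoot_sr _ _ _).neg
    have s00 : sr (0 : Fin 3) 0 = 1 := by decide +kernel
    have s20 : sr (2 : Fin 3) 0 = 0 := by decide +kernel
    have hne : x ≠ y ∧ x ≠ -y := by
      constructor <;> intro e <;> have e0 := congrFun e 0 <;>
        rcases hx with rfl | rfl <;> rcases hy with rfl | rfl <;>
        simp only [Pi.neg_apply, s00, s20] at e0 <;> omega
    have h1 := (rgdS (F := F)).comm x y hxr hyr hne.1 hne.2 u hu v hv
    rw [btw_eq_bot hx hy, Subgroup.mem_bot, commutatorElement_eq_one_iff_mul_comm] at h1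
    exact h1.symm
  have h0 : XS F (sr 0) ⊔ XS F (-sr 0) ≤ Subgroup.normalizer ((XS F (sr 2) ⊔ XS F (-sr 2) : Subgroup (PSp 3 F)) : Set (PSp 3 F)) := by
    refine le_trans ?_ (Subgroup.centralizer_le_normalizer _)
    rw [Subgroup.le_centralizer_iff]
    refine sup_le ?_ ?_ <;> rw [Subgroup.le_centralizer_iff] <;> refine sup_le ?_ ?_
    · exact hcomm _ _ (Or.inl rfl) (Or.inl rfl)
    · exact hcomm _ _ (Or.inr rfl) (Or.inl rfl)
    · exact hcomm _ _ (Or.inl rfl) (Or.inr rfl)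
    · exact hcomm _ _ (Or.inr rfl) (Or.inr rfl)
  refine solvable_le (isSolvable_sup (solvable_node h2 0) (solvable_node h2 2) h0) (RGD.Sup_le fun x hx => ?_)
  have hx1 : x 1 = 0 := hx.2 1 (by simp)
  rcases not_both hx.1 hx1 with h | h
  · have h3 : x ∈ RootsJ cs (isCartan 3) {2} := ⟨hx.1, fun k hk => by
      fin_cases k
      · exact h
      · exact hx1
      · exact absurd rfl hk⟩
    rcases rootsJ_single 2 h3 with rfl | rfl
    · exact le_sup_left.trans le_sup_right
    · exact le_sup_right.trans le_sup_right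
  · have h3 : x ∈ RootsJ cs (isCartan 3) {0} := ⟨hx.1, fun k hk => by
      fin_cases k
      · exact absurd rfl hk
      · exact hx1
      · exact h⟩
    rcases rootsJ_single 0 h3 with rfl | rfl
    · exact le_sup_left.trans le_sup_left
    · exact le_sup_right.trans le_sup_left

theorem solvable_single (h2 : Fintype.card F = 2) (i : Fin 3) :
    Group.IsSolvable ↥(LJ cs (isCartan 3) (TS F) (XS F) ({i} : Set (Fin 3))) := by
  rw [LJ_eq h2, Sup_single]
  exact solvable_node h2 i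

/-! ### The quasisimple node sets -/

theorem nodeD_A (h2 : Fintype.card F = 2) : ∃ N, NodeD cs (isCartan 3) (TS F) (XS F) ({0, 1} : Set (Fin 3)) N ∧
    Nonempty (N ≃* ProjectiveSpecialLinearGroup (Fin 3) F) := by
  have h2p : Fact (Nat.Prime 2) := ⟨Nat.prime_two⟩
  have hfin : Finite (ProjectiveSpecialLinearGroup (Fin 3) F) := Quotient.finite _
  have hsimple : IsSimpleGroup (ProjectiveSpecialLinearGroup (Fin 3) F) := simple_psl (F := F) 0
  have hnc : ¬ IsMulCommutative (ProjectiveSpecialLinearGroup (Fin 3) F) := not_comm_psl (F := F) 0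
  have hφi : Function.Injective (phiA F) := (toPSp_injective h2).comp lin_injective
  let e1 : SpecialLinearGroup (Fin 3) F ≃* ProjectiveSpecialLinearGroup (Fin 3) F :=
    MulEquiv.ofBijective (Nodes.RGDTypeA.pr 2 F) ⟨pr_injective h2, Nodes.RGDTypeA.pr_surjective⟩
  let e2 : SpecialLinearGroup (Fin 3) F ≃* (phiA F).range := MonoidHom.ofInjective hφi
  let e : ProjectiveSpecialLinearGroup (Fin 3) F ≃* (phiA F).range := e1.symm.trans e2
  refine ⟨(phiA F).range, ⟨range_phiA.le, ?_, ?_, ⊥, ?_, bot_le, bot_le, ?_⟩, ⟨e.symm⟩⟩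
  · exact QTKE.isQuasisimple_congr e (isQuasisimple_of_simple _ hnc)
  · rw [← Lib.Cores.map_equiv_pCore e 2, pCore_of_simple 2 _ hnc, Subgroup.map_bot]
  · infer_instance
  · rw [LJ_eq h2, bot_sup_eq]
    exact range_phiA.ge

theorem nodeD_B (h2 : Fintype.card F = 2) : ∃ N, NodeD cs (isCartan 3) (TS F) (XS F) ({1, 2} : Set (Fin 3)) N ∧
    Nonempty (N ≃* alternatingGroup (Fin 6)) := by
  have h2p : Fact (Nat.Prime 2) := ⟨Nat.prime_two⟩
  obtain ⟨e⟩ := exists_equiv_B h2
  set H := RGD.Sup (XS F) (RootsJ cs (isCartan 3) {1, 2}) with hH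
  have hsimple : IsSimpleGroup (alternatingGroup (Fin 6)) := alternatingGroup.isSimpleGroup (by simp)
  have hnc : ¬ IsMulCommutative (alternatingGroup (Fin 6)) := by
    intro h
    have h1 : (1 : ℕ) = 1 := rfl
    have key : ¬ ∀ a b : alternatingGroup (Fin 6), a * b = b * a := by
      intro hc
      have h3 := hc ⟨Equiv.swap 0 1 * Equiv.swap 1 2, by
          rw [Equiv.Perm.mem_alternatingGroup]; decide +kernel⟩ ⟨Equiv.swap 0 1 * Equiv.swap 1 3, by
          rw [Equiv.Perm.mem_alternatingGroup]; decide +kernel⟩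
      have h4 : (Equiv.swap 0 1 * Equiv.swap 1 2 : Equiv.Perm (Fin 6)) * (Equiv.swap 0 1 * Equiv.swap 1 3) =
        (Equiv.swap 0 1 * Equiv.swap 1 3) * (Equiv.swap 0 1 * Equiv.swap 1 2) := congrArg Subtype.val h3
      revert h4
      decide +kernel
    exact key h.is_comm.comm
  set N' : Subgroup H := (alternatingGroup (Fin 6)).map e.symm.toMonoidHom with hN'
  set N : Subgroup (PSp 3 F) := N'.map H.subtype with hN
  let f1 : alternatingGroup (Fin 6) ≃* N' := e.symm.subgroupMap (alternatingGroup (Fin 6))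
  let f2 : N' ≃* N := N'.equivMapOfInjective H.subtype H.subtype_injective
  let f : alternatingGroup (Fin 6) ≃* N := f1.trans f2
  have hNH : N ≤ H := Subgroup.map_subtype_le N'
  have hN'n : N'.Normal := Subgroup.Normal.map inferInstance _ e.symm.surjective
  have hnorm : H ≤ Subgroup.normalizer (N : Set (PSp 3 F)) := by
    refine Subgroup.normal_subgroupOf_iff_le_normalizer hNH |>.1 ?_
    have h5 : N.subgroupOf H = N' := by
      rw [hN, Subgroup.subgroupOf, Subgroup.comap_map_eq_self_of_injective H.subtype_injective]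
    rw [h5]
    exact hN'n
  set s : H := e.symm (Equiv.swap 0 1) with hs
  have hle : Subgroup.zpowers (s : PSp 3 F) ≤ H := by
    rw [Subgroup.zpowers_le]
    exact s.2
  refine ⟨N, ⟨hNH, ?_, ?_, Subgroup.zpowers (s : PSp 3 F), ?_, ?_, ?_, ?_⟩, ⟨f.symm⟩⟩
  · exact QTKE.isQuasisimple_congr f (isQuasisimple_of_simple _ hnc)
  · rw [← Lib.Cores.map_equiv_pCore f 2, pCore_of_simple 2 _ hnc, Subgroup.map_bot]
  · exact Group.isSolvable_of_comm fun x y => IsMulCommutative.is_comm.comm x y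
  · rw [LJ_eq h2]
    exact hle
  · exact hle.trans hnorm
  · rw [LJ_eq h2]
    intro x hx
    by_cases h : e ⟨x, hx⟩ ∈ alternatingGroup (Fin 6)
    · refine Subgroup.mem_sup_right ⟨⟨x, hx⟩, ⟨e ⟨x, hx⟩, h, ?_⟩, rfl⟩
      exact e.symm_apply_apply _
    · have h3 : Equiv.swap 0 1 * e ⟨x, hx⟩ ∈ alternatingGroup (Fin 6) := by
        rw [Equiv.Perm.mem_alternatingGroup] at h ⊢
        rw [Equiv.Perm.sign_mul, Equiv.Perm.sign_swap (by decide)]
        rcases Int.units_eq_one_or (Equiv.Perm.sign (e ⟨x, hx⟩)) with h4 | h4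
        · exact absurd h4 h
        · rw [h4]
          rfl
      have h4 : (s * ⟨x, hx⟩ : H) ∈ N' := ⟨_, h3, by
        change e.symm (Equiv.swap 0 1 * e ⟨x, hx⟩) = _
        rw [map_mul, e.symm_apply_apply]⟩
      have h5 : (s : PSp 3 F) * x ∈ N := ⟨_, h4, rfl⟩
      have e3 : x = (s : PSp 3 F)⁻¹ * ((s : PSp 3 F) * x) := by group
      rw [e3]
      exact mul_mem (Subgroup.mem_sup_left (inv_mem (Subgroup.mem_zpowers _))) (Subgroup.mem_sup_right h5)

/-- the types of the row -/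
def QS (F : Type) [Field F] : Bool → Type
  | true => ProjectiveSpecialLinearGroup (Fin 3) F
  | false => alternatingGroup (Fin 6)

noncomputable instance instGroupQS (F : Type) [Field F] : ∀ b, Group (QS F b)
  | true => inferInstanceAs (Group (ProjectiveSpecialLinearGroup (Fin 3) F))
  | false => inferInstanceAs (Group (alternatingGroup (Fin 6)))

theorem rowL_spSix (h2 : Fintype.card F = 2) : RowL (QS F) (PSp 3 F) := by
  obtain ⟨Φ, hF⟩ := exists_filtS (F := F)
  have : Finite (CoxeterMatrix.B 3).Group := finite_W cs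
  have : Finite (PSp 3 F) := Quotient.finite _
  refine rowL_of_rgd hF G1S fun J hJ => ?_
  obtain ⟨k, hk⟩ : ∃ k, k ∉ J := by
    by_contra h4
    push Not at h4
    exact hJ (Set.eq_univ_iff_forall.2 h4)
  have hsub : ∀ i j : Fin 3, (∀ x, x ∈ J → x = i ∨ x = j) → J = {i, j} ∨ J ⊆ {i} ∨ J ⊆ {j} := by
    intro i j h
    by_cases hi : i ∈ J
    · by_cases hj : j ∈ J
      · left
        ext x
        simp only [Set.mem_insert_iff, Set.mem_singleton_iff]
        exact ⟨h x, by rintro (rfl | rfl) <;> assumption⟩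
      · right; left
        intro x hx
        rcases h x hx with rfl | rfl
        · rfl
        · exact absurd hx hj
    · right; right
      intro x hx
      rcases h x hx with rfl | rfl
      · exact absurd hx hi
      · rfl
  have hsol : ∀ i : Fin 3, J ⊆ {i} → Group.IsSolvable ↥(LJ cs (isCartan 3) (TS F) (XS F) J) := fun i h =>
    solvable_le (solvable_single h2 i) (LJ_mono h)
  fin_cases k
  · rcases hsub 1 2 (fun x hx => by
      fin_cases x
      · exact absurd hx hk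
      · exact Or.inl rfl
      · exact Or.inr rfl) with rfl | h | h
    · obtain ⟨N, hN, hq⟩ := nodeD_B h2
      exact Or.inr ⟨N, hN, false, hq⟩
    · exact Or.inl (hsol _ h)
    · exact Or.inl (hsol _ h)
  · left
    refine solvable_le (solvable_02 h2) (LJ_mono fun x hx => ?_)
    fin_cases x
    · simp
    · exact absurd hx hk
    · simp
  · rcases hsub 0 1 (fun x hx => by
      fin_cases x
      · exact Or.inl rfl
      · exact Or.inr rfl
      · exact absurd hx hk) with rfl | h | h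
    · obtain ⟨N, hN, hq⟩ := nodeD_A h2
      exact Or.inr ⟨N, hN, true, hq⟩
    · exact Or.inl (hsol _ h)
    · exact Or.inl (hsol _ h)

/-- **row `Sp₆(2)`**: `L/O₂(L)` is `L₃(2)` or `A₆` -/
theorem row_spSix {G : Type v} [Group G] [Finite G] (h2 : Fintype.card F = 2) (e : G ≃* PSp 3 F) : RowL (QS F) G :=
  RowL.congr e (rowL_spSix h2)

end Cfsg.Agent.H1.SpSix
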